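import Mathlib
import Cfsg.Prelude.Def_LieRecognition

/-!
Basic theory of the split rank-one set-up `Cfsg.IsRankOneSetup`:
`Q` is regular on the points other than `a`, involutions of `G_a` lie in `Q`, every involution of `G`
has exactly one fixed point, canonical forms, counting.
-/

set_option autoImplicit false

namespace Cfsg.Agent.Lib.RankOne.Basic

open MulAction

variable {G Ω : Type*} [Group G] [MulAction G Ω] {a : Ω} {t : G} {Q : Subgroup G}

/-- Double transitivity, in elementary form. -/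
theorem two_trans (hS : Cfsg.IsRankOneSetup G Ω a t Q) {x₁ x₂ y₁ y₂ : Ω}
    (hx : x₁ ≠ x₂) (hy : y₁ ≠ y₂) : ∃ g : G, g • x₁ = y₁ ∧ g • x₂ = y₂ := by
  have h := hS.two_transitive
  rw [MulAction.is_two_pretransitive_iff] at h
  exact h hx hy

theorem ta_ne (hS : Cfsg.IsRankOneSetup G Ω a t Q) : t • a ≠ a := by
  intro h
  exact hS.not_mem (by simpa [MulAction.mem_stabilizer_iff] using h)

theorem t_inv (hS : Cfsg.IsRankOneSetup G Ω a t Q) : t⁻¹ = t :=
  inv_eq_of_mul_eq_one_left hS.mul_self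

theorem t_t_smul (hS : Cfsg.IsRankOneSetup G Ω a t Q) (c : Ω) : t • t • c = c := by
  rw [smul_smul, hS.mul_self, one_smul]

theorem mem_Ga_of_mem_Q (hS : Cfsg.IsRankOneSetup G Ω a t Q) {r : G} (hr : r ∈ Q) : r • a = a :=
  hS.le hr

/-- `D`, the two-point stabiliser. -/
abbrev DD (G : Type*) {Ω : Type*} [Group G] [MulAction G Ω] (a : Ω) (t : G) : Subgroup G :=
  MulAction.stabilizer G a ⊓ MulAction.stabilizer G (t • a)

theorem mem_DD {d : G} : d ∈ DD G a t ↔ d • a = a ∧ d • (t • a) = t • a := by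
  simp [DD, MulAction.mem_stabilizer_iff]

/-- Every element of `G_a` is `r d` with `r ∈ Q` and `d ∈ D`. -/
theorem exists_decomp (hS : Cfsg.IsRankOneSetup G Ω a t Q) {g : G} (hg : g • a = a) :
    ∃ r ∈ Q, ∃ d ∈ DD G a t, g = r * d := by
  have hmem : g ∈ Q ⊔ DD G a t := by
    have h1 : Q ⊔ DD G a t = MulAction.stabilizer G a := hS.sup_eq
    rw [h1]
    exact hg
  have hn : ∀ d ∈ DD G a t, ∀ r ∈ Q, d * r * d⁻¹ ∈ Q := fun d hd r hr =>
    hS.conj_mem d hd.1 r hr
  -- the set `Q * D` is a subgroup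
  let S : Subgroup G :=
    { carrier := {x | ∃ r ∈ Q, ∃ d ∈ DD G a t, x = r * d}
      mul_mem' := by
        rintro _ _ ⟨r₁, hr₁, d₁, hd₁, rfl⟩ ⟨r₂, hr₂, d₂, hd₂, rfl⟩
        refine ⟨r₁ * (d₁ * r₂ * d₁⁻¹), mul_mem hr₁ (hn d₁ hd₁ r₂ hr₂), d₁ * d₂, mul_mem hd₁ hd₂, ?_⟩
        simp only [mul_assoc, inv_mul_cancel_left]
      one_mem' := ⟨1, one_mem _, 1, one_mem _, by simp⟩
      inv_mem' := by
        rintro _ ⟨r₁, hr₁, d₁, hd₁, rfl⟩
        refine ⟨d₁⁻¹ * r₁⁻¹ * d₁⁻¹⁻¹, hn d₁⁻¹ (inv_mem hd₁) _ (inv_mem hr₁), d₁⁻¹, inv_mem hd₁, ?_⟩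
        simp only [mul_inv_rev, inv_inv, mul_assoc, mul_inv_cancel, mul_one] }
  have hle : Q ⊔ DD G a t ≤ S := by
    apply sup_le
    · intro x hx
      exact ⟨x, hx, 1, one_mem _, by simp⟩
    · intro x hx
      exact ⟨1, one_mem _, x, hx, by simp⟩
  exact hle hmem

/-- `Q` is transitive on the points other than `a`. -/
theorem exists_Q_smul (hS : Cfsg.IsRankOneSetup G Ω a t Q) {c : Ω} (hc : c ≠ a) :
    ∃ r ∈ Q, r • (t • a) = c := by
  obtain ⟨g, hg₁, hg₂⟩ := two_trans hS (x₁ := a) (x₂ := t • a) (y₁ := a) (y₂ := c)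
    (ta_ne hS).symm hc.symm
  obtain ⟨r, hr, d, hd, rfl⟩ := exists_decomp hS hg₁
  refine ⟨r, hr, ?_⟩
  rw [mul_smul, (mem_DD.1 hd).2] at hg₂
  exact hg₂

/-- A non-identity element of `Q` fixes only `a`. -/
theorem Q_free (hS : Cfsg.IsRankOneSetup G Ω a t Q) {r : G} (hr : r ∈ Q) {c : Ω} (hc : c ≠ a)
    (hrc : r • c = c) : r = 1 := by
  obtain ⟨r₀, hr₀, rfl⟩ := exists_Q_smul hS hc
  have h₁ : r₀⁻¹ * r * r₀ ∈ Q := mul_mem (mul_mem (inv_mem hr₀) hr) hr₀
  have h₂ : r₀⁻¹ * r * r₀ ∈ MulAction.stabilizer G (t • a) := by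
    rw [MulAction.mem_stabilizer_iff, mul_smul, mul_smul, hrc, inv_smul_smul]
  have h₃ : r₀⁻¹ * r * r₀ ∈ Q ⊓ MulAction.stabilizer G (t • a) := ⟨h₁, h₂⟩
  rw [hS.inf_eq_bot, Subgroup.mem_bot] at h₃
  have : r = r₀ * (r₀⁻¹ * r * r₀) * r₀⁻¹ := by group
  rw [this, h₃]
  group

/-- The fixed point of a non-identity element of `Q` is `a`. -/
theorem eq_a_of_fix (hS : Cfsg.IsRankOneSetup G Ω a t Q) {r : G} (hr : r ∈ Q) (hr1 : r ≠ 1) {c : Ω}
    (hrc : r • c = c) : c = a := by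
  by_contra hc
  exact hr1 (Q_free hS hr hc hrc)

/-- `Q` is regular on the points other than `a`. -/
theorem Q_unique (hS : Cfsg.IsRankOneSetup G Ω a t Q) {r r' : G} (hr : r ∈ Q) (hr' : r' ∈ Q) {c : Ω}
    (hc : c ≠ a) (h : r • c = r' • c) : r = r' := by
  have h₁ : r'⁻¹ * r ∈ Q := mul_mem (inv_mem hr') hr
  have h₂ : (r'⁻¹ * r) • c = c := by
    rw [mul_smul, h, inv_smul_smul]
  have := Q_free hS h₁ hc h₂
  rw [inv_mul_eq_one] at this
  exact this.symm

theorem Q_smul_ne (hS : Cfsg.IsRankOneSetup G Ω a t Q) {r : G} (hr : r ∈ Q) {c : Ω} (hc : c ≠ a) :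
    r • c ≠ a := by
  intro h
  apply hc
  have : r • a = a := hS.le hr
  exact MulAction.injective r (h.trans this.symm)

/-- A general element fixing `a` moves points other than `a` to points other than `a`. -/
theorem smul_ne_of_fix {g : G} (hg : g • a = a) {c : Ω} (hc : c ≠ a) : g • c ≠ a := by
  intro h
  exact hc (MulAction.injective g (h.trans hg.symm))

section Finite

variable [Finite G]

theorem Q_ne_bot (hS : Cfsg.IsRankOneSetup G Ω a t Q) : ∃ x ∈ Q, x ≠ 1 ∧ x * x = 1 := by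
  have h2 : 2 ∣ Nat.card Q := hS.even_card.two_dvd
  haveI : Fact (Nat.Prime 2) := ⟨Nat.prime_two⟩
  haveI : Finite Q := inferInstance
  obtain ⟨x, hx⟩ := exists_prime_orderOf_dvd_card' 2 h2
  refine ⟨x, x.2, ?_, ?_⟩
  · intro h
    have : (x : Q) = 1 := Subtype.ext h
    rw [this, orderOf_one] at hx
    omega
  · have := pow_orderOf_eq_one x
    rw [hx, pow_two] at this
    have h' := congrArg (Subtype.val) this
    simpa using h'

/-- An element of `D` squaring to `1` is `1`. -/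
theorem DD_sq (hS : Cfsg.IsRankOneSetup G Ω a t Q) {d : G} (hd : d ∈ DD G a t)
    (hd2 : d * d = 1) : d = 1 := by
  have hod : Odd (Nat.card (DD G a t)) := hS.odd_card
  have h1 : orderOf (⟨d, hd⟩ : DD G a t) ∣ Nat.card (DD G a t) := orderOf_dvd_natCard _
  have h2 : orderOf (⟨d, hd⟩ : DD G a t) ∣ 2 := by
    apply orderOf_dvd_of_pow_eq_one
    apply Subtype.ext
    simp [pow_two, hd2]
  have h3 : orderOf (⟨d, hd⟩ : DD G a t) = 1 := by
    rcases (Nat.dvd_prime Nat.prime_two).1 h2 with h | h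
    · exact h
    · rw [h] at h1
      exact absurd h1 hod.not_two_dvd_nat
  have := orderOf_eq_one_iff.1 h3
  exact congrArg Subtype.val this

omit [Finite G] in
/-- Odd order of elements of `D`. -/
theorem DD_orderOf_odd (hS : Cfsg.IsRankOneSetup G Ω a t Q) {d : G} (hd : d ∈ DD G a t) :
    Odd (orderOf d) := by
  have hod : Odd (Nat.card (DD G a t)) := hS.odd_card
  have h1 : orderOf (⟨d, hd⟩ : DD G a t) ∣ Nat.card (DD G a t) := orderOf_dvd_natCard _
  have h2 : orderOf (⟨d, hd⟩ : DD G a t) = orderOf d := by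
    rw [Subgroup.orderOf_mk]
  rw [← h2]
  exact Odd.of_dvd_nat hod h1

/-- An element of `G_a` squaring to `1` lies in `Q`. -/
theorem mem_Q_of_sq (hS : Cfsg.IsRankOneSetup G Ω a t Q) {s : G} (hs : s • a = a)
    (hs2 : s * s = 1) : s ∈ Q := by
  obtain ⟨r, hr, d, hd, rfl⟩ := exists_decomp hS hs
  have h1 : d * r * d⁻¹ ∈ Q := hS.conj_mem d hd.1 r hr
  have h2 : d * d = (r * (d * r * d⁻¹))⁻¹ := by
    rw [eq_inv_iff_mul_eq_one]
    calc d * d * (r * (d * r * d⁻¹)) = d * (d * r * (d * r * d⁻¹)) * 1 := by group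
      _ = _ := ?_
    have h3 : r * d * (r * d) = 1 := hs2
    have h4 : d * r * d * r = 1 := by
      have : d * r * d * r = r⁻¹ * (r * d * (r * d)) * r := by group
      rw [this, h3]; group
    have : d * (d * r * (d * r * d⁻¹)) * 1 = d * (d * r * d * r) * d⁻¹ := by group
    rw [this, h4]; group
  have h3 : d * d ∈ Q := by
    rw [h2]
    exact inv_mem (mul_mem hr h1)
  have h4 : d * d ∈ Q ⊓ MulAction.stabilizer G (t • a) := ⟨h3, (mul_mem hd hd).2⟩
  rw [hS.inf_eq_bot, Subgroup.mem_bot] at h4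
  have h5 := DD_sq hS hd h4
  rw [h5, mul_one]
  exact hr

/-- An involution fixing `a` fixes nothing else. -/
theorem eq_a_of_invol_fix (hS : Cfsg.IsRankOneSetup G Ω a t Q) {s : G} (hs : s • a = a)
    (hs1 : s ≠ 1) (hs2 : s * s = 1) {c : Ω} (hc : s • c = c) : c = a :=
  eq_a_of_fix hS (mem_Q_of_sq hS hs hs2) hs1 hc

/-- The orbit map gives `Finite Ω`. -/
theorem finite_omega (hS : Cfsg.IsRankOneSetup G Ω a t Q) : Finite Ω := by
  have hsurj : Function.Surjective (fun g : G => g • a) := by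
    intro c
    by_cases hc : c = a
    · exact ⟨1, by simp [hc]⟩
    · obtain ⟨r, _, hr⟩ := exists_Q_smul hS hc
      exact ⟨r * t, by simp [mul_smul, hr]⟩
  exact Finite.of_surjective _ hsurj

/-- The bijection `Q ≃ Ω \ {a}`. -/
noncomputable def equivQ (hS : Cfsg.IsRankOneSetup G Ω a t Q) : Q ≃ {c : Ω // c ≠ a} :=
  Equiv.ofBijective
    (fun r => ⟨(r : G) • (t • a), Q_smul_ne hS r.2 (ta_ne hS)⟩)
    (by
      constructor
      · intro r r' h
        have h' : (r : G) • (t • a) = (r' : G) • (t • a) := congrArg Subtype.val h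
        exact Subtype.ext (Q_unique hS r.2 r'.2 (ta_ne hS) h')
      · rintro ⟨c, hc⟩
        obtain ⟨r, hr, hrc⟩ := exists_Q_smul hS hc
        exact ⟨⟨r, hr⟩, Subtype.ext hrc⟩)

theorem card_omega (hS : Cfsg.IsRankOneSetup G Ω a t Q) : Nat.card Ω = Nat.card Q + 1 := by
  classical
  haveI := finite_omega hS
  haveI := Fintype.ofFinite Ω
  have h1 : Nat.card Q = Nat.card {c : Ω // c ≠ a} := Nat.card_congr (equivQ hS)
  have h2 : Nat.card {c : Ω // c ≠ a} = Fintype.card Ω - 1 := by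
    rw [Nat.card_eq_fintype_card, Fintype.card_subtype_compl]
    simp
  have h3 : 0 < Fintype.card Ω := Fintype.card_pos_iff.mpr ⟨a⟩
  rw [h1, h2, Nat.card_eq_fintype_card]
  omega

theorem odd_card_omega (hS : Cfsg.IsRankOneSetup G Ω a t Q) : Odd (Nat.card Ω) := by
  rw [card_omega hS]
  exact hS.even_card.add_one

/-- Every involution has a fixed point: it acts on a set of odd size. -/
theorem exists_fix (hS : Cfsg.IsRankOneSetup G Ω a t Q) {u : G} (hu2 : u * u = 1) :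
    ∃ c : Ω, u • c = c := by
  classical
  haveI := finite_omega hS
  haveI := Fintype.ofFinite Ω
  by_contra hno
  push Not at hno
  have hodd : Odd (Fintype.card Ω) := by
    rw [← Nat.card_eq_fintype_card]
    exact odd_card_omega hS
  haveI : Fact (Nat.Prime 2) := ⟨Nat.prime_two⟩
  let f : Function.End Ω := fun c => u • c
  have hf : f ^ 2 ^ 1 = 1 := by
    funext c
    change u • u • c = c
    simp only [smul_smul, hu2, one_smul]
  have hm := Equiv.Perm.card_fixedPoints_modEq (α := Ω) (p := 2) (n := 1) hf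
  have h0 : Fintype.card (Function.fixedPoints f) = 0 := by
    rw [Fintype.card_eq_zero_iff]
    exact ⟨fun x => hno x.1 x.2⟩
  rw [h0] at hm
  have : 2 ∣ Fintype.card Ω := (Nat.modEq_zero_iff_dvd).1 hm
  exact hodd.not_two_dvd_nat this

/-- Every involution has exactly one fixed point. -/
theorem exists_unique_fix (hS : Cfsg.IsRankOneSetup G Ω a t Q) {u : G} (hu1 : u ≠ 1) (hu2 : u * u = 1) :
    ∃! c : Ω, u • c = c := by
  obtain ⟨c, hc⟩ := exists_fix hS hu2
  refine ⟨c, hc, ?_⟩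
  intro d hd
  by_contra hdc
  -- move `c` to `a`
  have hne : c ≠ d := fun h => hdc h.symm
  obtain ⟨g, hg₁, hg₂⟩ := two_trans hS (x₁ := c) (x₂ := d) (y₁ := a) (y₂ := t • a) hne (ta_ne hS).symm
  have hs : (g * u * g⁻¹) • a = a := by
    rw [← hg₁]
    simp [mul_smul, hc]
  have hs2 : (g * u * g⁻¹) * (g * u * g⁻¹) = 1 := by
    have : (g * u * g⁻¹) * (g * u * g⁻¹) = g * (u * u) * g⁻¹ := by group
    rw [this, hu2]; group
  have hs1 : g * u * g⁻¹ ≠ 1 := by
    intro h
    apply hu1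
    have : u = g⁻¹ * (g * u * g⁻¹) * g := by group
    rw [this, h]; group
  have hfix : (g * u * g⁻¹) • (t • a) = t • a := by
    rw [← hg₂]
    simp [mul_smul, hd]
  exact (ta_ne hS) (eq_a_of_invol_fix hS hs hs1 hs2 hfix)

/-- An involution that commutes with `g` and fixes a point `c`: `g` fixes it as well. -/
theorem fix_of_commute (hS : Cfsg.IsRankOneSetup G Ω a t Q) {u g : G} (hu1 : u ≠ 1) (hu2 : u * u = 1)
    (hc : Commute u g) {c : Ω} (huc : u • c = c) : g • c = c := by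
  obtain ⟨e, _, he⟩ := exists_unique_fix hS hu1 hu2
  have h1 : u • (g • c) = g • c := by
    rw [← mul_smul, hc.eq, mul_smul, huc]
  rw [he _ h1, he _ huc]

end Finite

end Cfsg.Agent.Lib.RankOne.Basic
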