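import Cfsg.Agent.Lib.RankOne.Basic

/-!
Canonical forms in the rank-one set-up, `g = x t y`, with `x ∈ G_a`, `y ∈ Q`; conjugation by `t`
normalises `D`; elements of `G \ G_a` are uniquely `g h t f`.
-/

set_option autoImplicit false

namespace Cfsg.Agent.Lib.RankOne.Canon

open Cfsg.Agent.Lib.RankOne.Basic

variable {G Ω : Type*} [Group G] [MulAction G Ω] {a : Ω} {t : G} {Q : Subgroup G}

/-- `t` normalises `D`. -/
theorem t_conj_mem_DD (hS : Cfsg.IsRankOneSetup G Ω a t Q) {d : G} (hd : d ∈ DD G a t) :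
    t * d * t ∈ DD G a t := by
  rw [mem_DD] at hd ⊢
  constructor
  · simp only [mul_smul]
    rw [hd.2, t_t_smul hS]
  · simp only [mul_smul]
    rw [t_t_smul hS, hd.1]

theorem t_conj_conj (hS : Cfsg.IsRankOneSetup G Ω a t Q) (x : G) : t * (t * x * t) * t = x := by
  have h := hS.mul_self
  calc t * (t * x * t) * t = (t * t) * x * (t * t) := by group
    _ = x := by rw [h]; group

theorem t_conj_inv (hS : Cfsg.IsRankOneSetup G Ω a t Q) (x : G) : t * x⁻¹ * t = (t * x * t)⁻¹ := by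
  rw [eq_inv_iff_mul_eq_one]
  calc t * x⁻¹ * t * (t * x * t) = t * x⁻¹ * (t * t) * x * t := by group
    _ = t * x⁻¹ * 1 * x * t := by rw [hS.mul_self]
    _ = t * t := by group
    _ = 1 := hS.mul_self

theorem t_conj_mul (hS : Cfsg.IsRankOneSetup G Ω a t Q) (x y : G) :
    t * (x * y) * t = (t * x * t) * (t * y * t) := by
  calc t * (x * y) * t = t * x * 1 * y * t := by group
    _ = t * x * (t * t) * y * t := by rw [hS.mul_self]
    _ = _ := by group

/-- uniqueness of the `Q D` decomposition. -/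
theorem decomp_unique (hS : Cfsg.IsRankOneSetup G Ω a t Q) {r r' d d' : G} (hr : r ∈ Q) (hr' : r' ∈ Q)
    (hd : d ∈ DD G a t) (hd' : d' ∈ DD G a t) (h : r * d = r' * d') : r = r' ∧ d = d' := by
  have h1 : r'⁻¹ * r = d' * d⁻¹ := by
    rw [inv_mul_eq_iff_eq_mul, ← mul_assoc, ← h]; group
  have h2 : r'⁻¹ * r ∈ Q ⊓ MulAction.stabilizer G (t • a) := by
    rw [Subgroup.mem_inf]
    refine ⟨mul_mem (inv_mem hr') hr, ?_⟩
    rw [h1]
    exact (mul_mem hd' (inv_mem hd)).2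
  rw [hS.inf_eq_bot, Subgroup.mem_bot] at h2
  have h3 : r = r' := by
    rw [inv_mul_eq_one] at h2
    exact h2.symm
  subst h3
  exact ⟨rfl, mul_left_cancel h⟩

/-- uniqueness of `x t y`. -/
theorem canon_unique (hS : Cfsg.IsRankOneSetup G Ω a t Q) {x x' y y' : G}
    (hx : x • a = a) (hx' : x' • a = a) (hy : y ∈ Q) (hy' : y' ∈ Q)
    (h : x * t * y = x' * t * y') : x = x' ∧ y = y' := by
  have h1 : x'⁻¹ * x = t * (y' * y⁻¹) * t⁻¹ := by
    rw [inv_mul_eq_iff_eq_mul]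
    calc x = x * t * y * (t * y)⁻¹ := by group
      _ = x' * t * y' * (t * y)⁻¹ := by rw [h]
      _ = _ := by group
  have h2 : (t * (y' * y⁻¹) * t⁻¹) • a = a := by
    rw [← h1, mul_smul, hx]
    rw [inv_smul_eq_iff, hx']
  have h3 : (y' * y⁻¹) • (t • a) = t • a := by
    have h4 : t⁻¹ = t := t_inv hS
    rw [h4] at h2
    simp only [mul_smul] at h2
    have h5 := congrArg (fun c => t • c) h2
    simp only [t_t_smul hS] at h5
    rw [mul_smul]
    exact h5
  have h6 : y' * y⁻¹ ∈ Q ⊓ MulAction.stabilizer G (t • a) :=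
    Subgroup.mem_inf.2 ⟨mul_mem hy' (inv_mem hy), h3⟩
  rw [hS.inf_eq_bot, Subgroup.mem_bot, mul_inv_eq_one] at h6
  subst h6
  have h7 : x * t = x' * t := mul_right_cancel h
  exact ⟨mul_right_cancel h7, rfl⟩

/-- existence of `x t y`. -/
theorem canon_exists (hS : Cfsg.IsRankOneSetup G Ω a t Q) {g : G} (hg : g • a ≠ a) :
    ∃ x y : G, x • a = a ∧ y ∈ Q ∧ g = x * t * y := by
  have h1 : g⁻¹ • a ≠ a := by
    intro h
    apply hg
    rw [inv_smul_eq_iff] at h
    exact h.symm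
  obtain ⟨r, hr, hrc⟩ := exists_Q_smul hS h1
  refine ⟨g * r * t, r⁻¹, ?_, inv_mem hr, ?_⟩
  · simp only [mul_smul]
    rw [hrc, smul_inv_smul]
  · calc g = g * r * (t * t) * r⁻¹ := by rw [hS.mul_self]; group
      _ = _ := by group

/-- uniqueness of `g h t f`. -/
theorem canon_unique' (hS : Cfsg.IsRankOneSetup G Ω a t Q) {g h f g' h' f' : G}
    (hg : g ∈ Q) (hh : h ∈ DD G a t) (hf : f ∈ Q) (hg' : g' ∈ Q) (hh' : h' ∈ DD G a t) (hf' : f' ∈ Q)
    (e : g * h * t * f = g' * h' * t * f') : g = g' ∧ h = h' ∧ f = f' := by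
  have h1 : (g * h) • a = a := by
    rw [mul_smul, hh.1]
    exact hS.le hg
  have h2 : (g' * h') • a = a := by
    rw [mul_smul, hh'.1]
    exact hS.le hg'
  obtain ⟨h3, h4⟩ := canon_unique hS h1 h2 hf hf' e
  obtain ⟨h5, h6⟩ := decomp_unique hS hg hg' hh hh' h3
  exact ⟨h5, h6, h4⟩

/-- existence of `g h t f`. -/
theorem canon_exists' (hS : Cfsg.IsRankOneSetup G Ω a t Q) {u : G} (hu : u • a ≠ a) :
    ∃ g ∈ Q, ∃ h ∈ DD G a t, ∃ f ∈ Q, u = g * h * t * f := by
  obtain ⟨x, y, hx, hy, rfl⟩ := canon_exists hS hu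
  obtain ⟨r, hr, d, hd, rfl⟩ := exists_decomp hS hx
  exact ⟨r, hr, d, hd, y, hy, rfl⟩

/-- `t x t` moves `a` for `x ∈ Q`, `x ≠ 1`. -/
theorem t_conj_not_fix (hS : Cfsg.IsRankOneSetup G Ω a t Q) {x : G} (hx : x ∈ Q) (hx1 : x ≠ 1) :
    (t * x * t) • a ≠ a := by
  intro h
  apply hx1
  apply Q_free hS hx (ta_ne hS)
  simp only [mul_smul] at h
  have h5 := congrArg (fun c => t • c) h
  simpa only [t_t_smul hS] using h5

/-- The key computation: if `x ∈ D` commutes with `r ∈ Q` and `t r t = g h t f`, then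
`t x t = h x h⁻¹`, so `t h` commutes with `x`. -/
theorem t_conj_eq_of_commute (hS : Cfsg.IsRankOneSetup G Ω a t Q) {x r g h f : G}
    (hx : x ∈ DD G a t) (hrx : x * r = r * x)
    (hg : g ∈ Q) (hh : h ∈ DD G a t) (hf : f ∈ Q) (e : t * r * t = g * h * t * f) :
    t * x * t = h * x * h⁻¹ := by
  set y := t * x * t with hy_def
  have hy : y ∈ DD G a t := t_conj_mem_DD hS hx
  have h1 : y * (t * r * t) * y⁻¹ = t * r * t := by
    have h2 : y⁻¹ = t * x⁻¹ * t := by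
      rw [hy_def, t_conj_inv hS]
    rw [h2, hy_def]
    calc t * x * t * (t * r * t) * (t * x⁻¹ * t)
        = t * x * (t * t) * r * (t * t) * x⁻¹ * t := by group
      _ = t * (x * r) * x⁻¹ * t := by rw [hS.mul_self]; group
      _ = t * r * t := by rw [hrx]; group
  have hyinv : t * y⁻¹ = x⁻¹ * t := by
    have h2 : y⁻¹ = t * x⁻¹ * t := by
      rw [hy_def, t_conj_inv hS]
    rw [h2]
    calc t * (t * x⁻¹ * t) = (t * t) * x⁻¹ * t := by group
      _ = x⁻¹ * t := by rw [hS.mul_self]; group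
  have h3 : (y * g * y⁻¹) * (y * h * x⁻¹) * t * (y * f * y⁻¹) = g * h * t * f := by
    calc (y * g * y⁻¹) * (y * h * x⁻¹) * t * (y * f * y⁻¹)
        = y * g * h * (x⁻¹ * t) * y * f * y⁻¹ := by group
      _ = y * g * h * (t * y⁻¹) * y * f * y⁻¹ := by rw [hyinv]
      _ = y * (g * h * t * f) * y⁻¹ := by group
      _ = g * h * t * f := by rw [← e]; exact h1
  have hg' : y * g * y⁻¹ ∈ Q := hS.conj_mem y hy.1 g hg
  have hh' : y * h * x⁻¹ ∈ DD G a t := mul_mem (mul_mem hy hh) (inv_mem hx)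
  have hf' : y * f * y⁻¹ ∈ Q := hS.conj_mem y hy.1 f hf
  obtain ⟨-, h4, -⟩ := canon_unique' hS hg' hh' hf' hg hh hf h3
  -- `y h x⁻¹ = h`
  calc y = (y * h * x⁻¹) * (x * h⁻¹) := by group
    _ = h * (x * h⁻¹) := by rw [h4]
    _ = h * x * h⁻¹ := by group

end Cfsg.Agent.Lib.RankOne.Canon
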