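import Mathlib
import Cfsg.Agent.Lib.PGroups.NormalRankTwo
import Cfsg.Agent.S0065

set_option autoImplicit false
set_option linter.style.haveILetI false

/-! A `p`-group (`p` odd) acting faithfully on an elementary abelian `q`-group with all stabilisers
of non-zero vectors of the same size is cyclic and acts fixed point freely. -/

namespace Cfsg.Agent.Lib.RankOne.ConstStab

variable {P E : Type*} [Group P] [AddCommGroup E] [DistribMulAction P E]

/-- the norm element of `u` -/
def S (p : ℕ) (u : P) (e : E) : E := ∑ i ∈ Finset.range p, u ^ i • e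

theorem S_fixed {p : ℕ} {u : P} (hu : u ^ p = 1) (e : E) : u • S p u e = S p u e := by
  unfold S
  rw [Finset.smul_sum]
  have h1 := Finset.sum_range_succ' (fun i => u ^ i • e) p
  have h2 := Finset.sum_range_succ (fun i => u ^ i • e) p
  simp only [pow_zero, one_smul, hu] at h1 h2
  have h3 : ∑ i ∈ Finset.range p, u • u ^ i • e = ∑ i ∈ Finset.range p, u ^ (i + 1) • e := by
    apply Finset.sum_congr rfl
    intro i _
    rw [smul_smul, pow_succ']
  rw [h3]
  exact add_right_cancel (h1.symm.trans h2)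

theorem pow_smul_of_fix {u : P} {b : E} (hb : u • b = b) (i : ℕ) : u ^ i • b = b := by
  induction i with
  | zero => simp
  | succ n ih => rw [pow_succ, mul_smul, hb, ih]

theorem S_of_fix {p : ℕ} {u : P} {b : E} (hb : u • b = b) : S p u b = p • b := by
  unfold S
  rw [Finset.sum_congr rfl (fun i _ => pow_smul_of_fix hb i), Finset.sum_const, Finset.card_range]

theorem S_comm {p : ℕ} {u g : P} (hc : Commute g u) (e : E) : g • S p u e = S p u (g • e) := by
  unfold S
  rw [Finset.smul_sum]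
  apply Finset.sum_congr rfl
  intro i _
  rw [smul_smul, smul_smul, (hc.pow_right i).eq]

theorem S_add {p : ℕ} {u : P} (e e' : E) : S p u (e + e') = S p u e + S p u e' := by
  unfold S
  simp only [smul_add, Finset.sum_add_distrib]

section

variable [Finite P] [Finite E] [FaithfulSMul P E] {p q : ℕ} [Fact p.Prime]

theorem exists_smul_ne {g : P} (hg : g ≠ 1) : ∃ e : E, g • e ≠ e := by
  by_contra hno
  push Not at hno
  apply hg
  apply FaithfulSMul.eq_of_smul_eq_smul (α := E)
  intro e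
  rw [hno e, one_smul]

variable (hP : IsPGroup p P) (hq : q.Prime) (hE : ∀ e : E, q • e = 0) (hpq : q ≠ p)
  (hconst : ∀ a b : E, a ≠ 0 → b ≠ 0 →
      Nat.card (MulAction.stabilizer P a) = Nat.card (MulAction.stabilizer P b))

include hq hE hpq in
theorem exists_inv_p : ∃ m : ℕ, ∀ e : E, m • (p • e) = e := by
  have hcop : Nat.Coprime p q := by
    exact (Nat.coprime_primes (Fact.out : p.Prime) hq).mpr (Ne.symm hpq)
  obtain ⟨m, hm⟩ := Nat.exists_mul_mod_eq_one_of_coprime hcop hq.one_lt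
  refine ⟨m, fun e => ?_⟩
  have e1 : p * m = q * (p * m / q) + 1 := by
    have := Nat.div_add_mod (p * m) q
    rw [hm.2] at this
    omega
  calc m • (p • e) = (p * m) • e := by rw [smul_smul, mul_comm]
    _ = (q * (p * m / q) + 1) • e := by rw [← e1]
    _ = e := by rw [add_smul, one_smul, mul_smul, hE, zero_add]

include hq hE hpq in
theorem p_cancel {e : E} (h : p • e = 0) : e = 0 := by
  obtain ⟨m, hm⟩ := exists_inv_p (E := E) (p := p) hq hE hpq
  rw [← hm e, h, smul_zero]

include hq hE hpq in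
theorem p_inj {e e' : E} (h : p • e = p • e') : e = e' := by
  have : p • (e - e') = 0 := by
    rw [smul_sub, h, sub_self]
  exact sub_eq_zero.mp (p_cancel hq hE hpq this)

/-- Central elements of order `p` act fixed point freely. -/
theorem central_fpf (hq : q.Prime) (hE : ∀ e : E, q • e = 0) (hpq : q ≠ p)
    (hconst : ∀ a b : E, a ≠ 0 → b ≠ 0 →
      Nat.card (MulAction.stabilizer P a) = Nat.card (MulAction.stabilizer P b))
    {z : P} (hz : z ∈ Subgroup.center P) (hz1 : z ≠ 1) (hzp : z ^ p = 1) {a : E}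
    (ha : z • a = a) : a = 0 := by
  by_contra ha0
  have hc : ∀ g : P, Commute g z := fun g => (Subgroup.mem_center_iff.mp hz) g
  obtain ⟨e, he⟩ := exists_smul_ne (E := E) hz1
  set b : E := p • e - S p z e with hb
  have hSb : S p z b = 0 := by
    have e1 : S p z (p • e) = p • S p z e := by
      unfold S
      simp only [smul_comm _ p, Finset.smul_sum]
    have e2 : S p z (S p z e) = p • S p z e := S_of_fix (S_fixed hzp e)
    have e3 : S p z (p • e) = S p z (b + S p z e) := by rw [hb, sub_add_cancel]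
    rw [S_add, e2, e1] at e3
    exact right_eq_add.mp e3
  have hb0 : b ≠ 0 := by
    intro hb0
    have e1 : p • e = S p z e := sub_eq_zero.mp hb0
    apply he
    apply p_inj (p := p) hq hE hpq
    rw [smul_comm, e1, S_fixed hzp]
  have hab0 : a + b ≠ 0 := by
    intro h0
    have e1 : S p z (a + b) = p • a := by rw [S_add, hSb, add_zero, S_of_fix ha]
    rw [h0] at e1
    have e2 : S p z (0 : E) = 0 := by
      unfold S; simp
    rw [e2] at e1
    exact ha0 (p_cancel hq hE hpq e1.symm)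
  have hle : MulAction.stabilizer P (a + b) ≤ MulAction.stabilizer P a ⊓ MulAction.stabilizer P b := by
    intro g hg
    have hg' : g • (a + b) = a + b := hg
    rw [smul_add] at hg'
    set c := g • a - a with hcdef
    have e1 : c = b - g • b := by
      rw [hcdef]
      rw [sub_eq_sub_iff_add_eq_add, hg']
      exact add_comm _ _
    have e2 : z • c = c := by
      rw [hcdef, smul_sub, ha, smul_smul, ← (hc g).eq, mul_smul, ha]
    have e3 : S p z c = 0 := by
      have e5 : c + g • b = b := by rw [e1, sub_add_cancel]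
      have e6 := congrArg (S p z) e5
      rw [S_add, ← S_comm (hc g), hSb, smul_zero, add_zero] at e6
      exact e6
    have e4 : c = 0 := by
      have := S_of_fix (p := p) e2
      rw [e3] at this
      exact p_cancel hq hE hpq this.symm
    constructor
    · exact sub_eq_zero.mp e4
    · have := e1.symm.trans e4
      exact (sub_eq_zero.mp this).symm
  have hz1' : MulAction.stabilizer P (a + b) = MulAction.stabilizer P a :=
    Subgroup.eq_of_le_of_card_ge (le_trans hle inf_le_left) (hconst _ _ ha0 hab0).le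
  have hz2' : MulAction.stabilizer P (a + b) = MulAction.stabilizer P b :=
    Subgroup.eq_of_le_of_card_ge (le_trans hle inf_le_right) (hconst _ _ hb0 hab0).le
  have hzb : z ∈ MulAction.stabilizer P b := by
    rw [← hz2', hz1']
    exact ha
  have e7 : z • b = b := hzb
  have e8 := S_of_fix (p := p) e7
  rw [hSb] at e8
  exact hb0 (p_cancel hq hE hpq e8.symm)

theorem isCyclic_of_ne (hp2 : p ≠ 2) (hP : IsPGroup p P) (hq : q.Prime) (hE : ∀ e : E, q • e = 0)
    (hpq : q ≠ p)
    (hconst : ∀ a b : E, a ≠ 0 → b ≠ 0 →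
      Nat.card (MulAction.stabilizer P a) = Nat.card (MulAction.stabilizer P b)) : IsCyclic P := by
  classical
  by_contra hnc
  have hpp : p.Prime := Fact.out
  obtain ⟨V, hVn, hVe, hVc⟩ :=
    Cfsg.Agent.Lib.PGroups.NormalRankTwo.exists_normal_elementaryAbelian_sq hp2 hP hnc
  haveI : Group.IsNilpotent P := hP.isNilpotent
  have hVbot : V ≠ ⊥ := by
    rintro rfl
    rw [Subgroup.card_bot] at hVc
    have := hpp.one_lt
    have h2 : 1 < p ^ 2 := Nat.one_lt_pow (by norm_num) this
    omega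
  have hm := Cfsg.Agent.S0065.result V hVbot
  obtain ⟨z', hz'⟩ := (Subgroup.ne_bot_iff_exists_ne_one).mp hm
  obtain ⟨z, hzz⟩ := z'
  have hzV : z ∈ V := hzz.1
  have hzc : z ∈ Subgroup.center P := hzz.2
  have hz1 : z ≠ 1 := fun e => hz' (Subtype.ext e)
  have hzp : z ^ p = 1 := hVe.2 z hzV
  have hVcomm : ∀ x ∈ V, ∀ y ∈ V, x * y = y * x := by
    intro x hx y hy
    have := congrArg Subtype.val (hVe.1.is_comm.comm ⟨x, hx⟩ ⟨y, hy⟩)
    exact this
  have hfpf : ∀ z' ∈ Subgroup.center P, z' ≠ 1 → z' ^ p = 1 → ∀ a : E, z' • a = a → a = 0 :=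
    fun z' h1 h2 h3 a ha => central_fpf hq hE hpq hconst h1 h2 h3 ha
  have hcardz : ∀ u : P, u ≠ 1 → u ^ p = 1 → Nat.card (Subgroup.zpowers u) = p := by
    intro u hu hup
    rw [Nat.card_zpowers]
    exact orderOf_eq_prime hup hu
  have hzo : orderOf z = p := orderOf_eq_prime hzp hz1
  -- an element outside `⟨z⟩`
  obtain ⟨y, hyV, hyz⟩ : ∃ y ∈ V, y ∉ Subgroup.zpowers z := by
    by_contra hno
    push Not at hno
    have hle : V ≤ Subgroup.zpowers z := fun y hy => hno y hy
    have := Subgroup.card_le_of_le hle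
    rw [hVc, hcardz z hz1 hzp] at this
    have h2 := hpp.one_lt
    nlinarith
  let w : ℕ → P := fun j => y * z ^ j
  have hwV : ∀ j, w j ∈ V := fun j => V.mul_mem hyV (V.pow_mem hzV j)
  have hwp : ∀ j, w j ^ p = 1 := fun j => hVe.2 _ (hwV j)
  have hw1 : ∀ j, w j ≠ 1 := by
    intro j e
    apply hyz
    have : y = (z ^ j)⁻¹ := eq_inv_of_mul_eq_one_left e
    rw [this]
    exact Subgroup.inv_mem _ (Subgroup.pow_mem _ (Subgroup.mem_zpowers z) j)
  have hcw : Commute y z := hVcomm y hyV z hzV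
  have hwpow : ∀ j i : ℕ, w j ^ i = y ^ i * (z ^ i) ^ j := by
    intro j i
    show (y * z ^ j) ^ i = _
    rw [(hcw.pow_right j).mul_pow, ← pow_mul, ← pow_mul, mul_comm j i]
  -- the sum identity
  have hsum : ∀ e : E, ∑ j ∈ Finset.range p, S p (w j) e = p • e := by
    intro e
    unfold S
    rw [Finset.sum_comm]
    rw [Finset.sum_eq_single 0]
    · simp
    · intro i hi hi0
      have hi' : i < p := Finset.mem_range.mp hi
      have hne : z ^ i ≠ 1 := pow_ne_one_of_lt_orderOf hi0 (by rw [hzo]; exact hi')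
      have hzip : (z ^ i) ^ p = 1 := by rw [← pow_mul, mul_comm, pow_mul, hzp, one_pow]
      have h0 := hfpf _ (Subgroup.pow_mem _ hzc i) hne hzip _ (S_fixed hzip e)
      unfold S at h0
      have e1 : ∑ j ∈ Finset.range p, w j ^ i • e = y ^ i • ∑ j ∈ Finset.range p, (z ^ i) ^ j • e := by
        rw [Finset.smul_sum]
        apply Finset.sum_congr rfl
        intro j _
        rw [hwpow, mul_smul]
      rw [e1, h0, smul_zero]
    · intro h0
      exact absurd (Finset.mem_range.mpr hpp.pos) h0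
  have hpow_fix : ∀ (W : Subgroup P) (b : E) (u : P), u • b = b → Subgroup.zpowers u ≤ MulAction.stabilizer P b := by
    intro W b u hu
    rw [Subgroup.zpowers_le]
    exact hu
  -- lemma A
  have hA : ∀ W W' : Subgroup P, W ≤ V → W' ≤ V → Nat.card W = p → Nat.card W' = p → W ≠ W' →
      ∀ b : E, W ≤ MulAction.stabilizer P b → W' ≤ MulAction.stabilizer P b → b = 0 := by
    intro W W' hW hW' hWc hWc' hne b hb hb'
    have hsup : W ⊔ W' = V := by
      have hle : W ⊔ W' ≤ V := sup_le hW hW'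
      have hd : Nat.card ↥(W ⊔ W') ∣ p ^ 2 := by
        rw [← hVc]
        exact Subgroup.card_dvd_of_le hle
      obtain ⟨k, hk2, hk⟩ := (Nat.dvd_prime_pow hpp).mp hd
      by_cases hk1 : k ≤ 1
      · exfalso
        have hcard : Nat.card ↥(W ⊔ W') ≤ p := by
          rw [hk]
          calc p ^ k ≤ p ^ 1 := Nat.pow_le_pow_right hpp.pos hk1
            _ = p := pow_one p
        have e1 : W = W ⊔ W' := Subgroup.eq_of_le_of_card_ge le_sup_left (by rw [hWc]; exact hcard)
        have e2 : W' = W ⊔ W' := Subgroup.eq_of_le_of_card_ge le_sup_right (by rw [hWc']; exact hcard)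
        exact hne (e1.trans e2.symm)
      · have hk3 : k = 2 := by omega
        apply Subgroup.eq_of_le_of_card_ge hle
        rw [hk, hVc, hk3]
    have hzb : z ∈ MulAction.stabilizer P b := by
      have : V ≤ MulAction.stabilizer P b := by
        rw [← hsup]
        exact sup_le hb hb'
      exact this hzV
    exact hfpf z hzc hz1 hzp b hzb
  -- lemma B
  have hB : ∀ u ∈ V, u ≠ 1 → ∀ W' : Subgroup P, W' ≤ V → Nat.card W' = p →
      Subgroup.zpowers u ≠ W' → ∀ b : E, W' ≤ MulAction.stabilizer P b → S p u b = 0 := by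
    intro u hu hu1 W' hW' hWc' hne b hb
    have hup : u ^ p = 1 := hVe.2 u hu
    apply hA (Subgroup.zpowers u) W' ((Subgroup.zpowers_le).mpr hu) hW' (hcardz u hu1 hup) hWc' hne
    · rw [Subgroup.zpowers_le]
      exact S_fixed hup b
    · intro v hv
      show v • S p u b = S p u b
      have hcomm : Commute v u := hVcomm v (hW' hv) u hu
      rw [S_comm hcomm]
      have : v • b = b := hb hv
      rw [this]
  -- oddness
  have hoddp : ∀ g : P, ∃ n : ℕ, (g * g) ^ n = g := by
    intro g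
    obtain ⟨k, hk⟩ := hP g
    have hodd : Odd (p ^ k) := (hpp.odd_of_ne_two hp2).pow
    obtain ⟨m, hm⟩ := hodd
    refine ⟨m + 1, ?_⟩
    have e1 : (g * g) ^ (m + 1) = g ^ (2 * (m + 1)) := by
      rw [← pow_two, ← pow_mul]
    rw [e1]
    have e2 : 2 * (m + 1) = p ^ k + 1 := by omega
    rw [e2, pow_succ, hk, one_mul]
  -- lemma M
  have hM : ∀ u₁ ∈ V, u₁ ≠ 1 → ∀ W₂ : Subgroup P, W₂ ≤ V → Nat.card W₂ = p →
      Subgroup.zpowers u₁ ≠ W₂ → ∀ a₁ a₂ : E, a₁ ≠ 0 → u₁ • a₁ = a₁ →
      W₂ ≤ MulAction.stabilizer P a₂ → ∀ g : P, g • (a₁ + a₂) = a₁ + a₂ → g • a₁ = a₁ := by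
    intro u₁ hu₁ hu₁1 W₂ hW₂ hW₂c hne a₁ a₂ ha₁ hfix₁ hfix₂ g hg
    have hup : u₁ ^ p = 1 := hVe.2 u₁ hu₁
    set W₁ := Subgroup.zpowers u₁ with hW₁
    have hW₁V : W₁ ≤ V := (Subgroup.zpowers_le).mpr hu₁
    have hW₁c : Nat.card W₁ = p := hcardz u₁ hu₁1 hup
    let cg : P →* P := (MulAut.conj g).toMonoidHom
    have hcginj : Function.Injective cg := (MulAut.conj g).injective
    have hmapV : ∀ W : Subgroup P, W ≤ V → W.map cg ≤ V := by
      rintro W hW _ ⟨x, hx, rfl⟩
      exact hVn.conj_mem x (hW hx) g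
    have hmapc : ∀ W : Subgroup P, Nat.card W = p → Nat.card (W.map cg) = p := by
      intro W hW
      rw [Subgroup.card_map_of_injective hcginj, hW]
    have hmapfix : ∀ (W : Subgroup P) (b : E), W ≤ MulAction.stabilizer P b →
        W.map cg ≤ MulAction.stabilizer P (g • b) := by
      rintro W b hW _ ⟨x, hx, rfl⟩
      have hxb : x • b = b := hW hx
      show (g * x * g⁻¹) • g • b = g • b
      rw [smul_smul, mul_assoc, mul_assoc, inv_mul_cancel, mul_one, mul_smul, hxb]
    have hne' : W₁.map cg ≠ W₂.map cg := fun e => hne (Subgroup.map_injective hcginj e)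
    have e0 : g • a₁ + g • a₂ = a₁ + a₂ := by rw [← smul_add, hg]
    have e1 := congrArg (S p u₁) e0
    rw [S_add, S_add, S_of_fix hfix₁, hB u₁ hu₁ hu₁1 W₂ hW₂ hW₂c hne a₂ hfix₂, add_zero] at e1
    by_cases hc1 : W₁.map cg = W₁
    · have hgfix : u₁ • g • a₁ = g • a₁ := by
        have : W₁ ≤ MulAction.stabilizer P (g • a₁) := by
          rw [← hc1]
          exact hmapfix _ _ ((Subgroup.zpowers_le).mpr hfix₁)
        exact this (Subgroup.mem_zpowers u₁)
      have hne2 : W₁ ≠ W₂.map cg := by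
        intro e
        apply hne'
        rw [hc1]
        exact e
      rw [S_of_fix hgfix, hB u₁ hu₁ hu₁1 _ (hmapV W₂ hW₂) (hmapc W₂ hW₂c) hne2 _ (hmapfix _ _ hfix₂),
        add_zero] at e1
      exact p_inj hq hE hpq e1
    · have hne1 : W₁ ≠ W₁.map cg := fun e => hc1 e.symm
      rw [hB u₁ hu₁ hu₁1 _ (hmapV W₁ hW₁V) (hmapc W₁ hW₁c) hne1 _
        (hmapfix _ _ ((Subgroup.zpowers_le).mpr hfix₁)), zero_add] at e1
      by_cases hc2 : W₂.map cg = W₁
      · have hgfix : u₁ • g • a₂ = g • a₂ := by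
          have : W₁ ≤ MulAction.stabilizer P (g • a₂) := by
            rw [← hc2]
            exact hmapfix _ _ hfix₂
          exact this (Subgroup.mem_zpowers u₁)
        rw [S_of_fix hgfix] at e1
        have e3 : g • a₂ = a₁ := p_inj hq hE hpq e1
        have e4 : g • a₁ = a₂ := by
          rw [e3, add_comm] at e0
          exact add_left_cancel e0
        have e5 : (g * g) • a₁ = a₁ := by
          rw [mul_smul, e4, e3]
        obtain ⟨n, hn⟩ := hoddp g
        have e6 := pow_smul_of_fix e5 n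
        rw [hn] at e6
        exact e6
      · have hne2 : W₁ ≠ W₂.map cg := fun e => hc2 e.symm
        rw [hB u₁ hu₁ hu₁1 _ (hmapV W₂ hW₂) (hmapc W₂ hW₂c) hne2 _ (hmapfix _ _ hfix₂)] at e1
        exact absurd (p_cancel hq hE hpq e1.symm) ha₁
  -- two components
  obtain ⟨e₀, he₀⟩ := exists_smul_ne (E := E) (hw1 0)
  have he₀' : p • e₀ ≠ 0 := by
    intro h0
    apply he₀
    rw [p_cancel hq hE hpq h0, smul_zero]
  obtain ⟨j₁, hj₁, ha₁⟩ : ∃ j₁ ∈ Finset.range p, S p (w j₁) e₀ ≠ 0 := by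
    apply Finset.exists_ne_zero_of_sum_ne_zero
    rw [hsum]
    exact he₀'
  obtain ⟨e₁, he₁⟩ := exists_smul_ne (E := E) (hw1 j₁)
  obtain ⟨j₂, hj₂, hj₁₂, ha₂⟩ : ∃ j₂ ∈ Finset.range p, j₂ ≠ j₁ ∧ S p (w j₂) e₁ ≠ 0 := by
    by_contra hno
    push Not at hno
    have e1 : ∑ j ∈ Finset.range p, S p (w j) e₁ = S p (w j₁) e₁ :=
      Finset.sum_eq_single_of_mem j₁ hj₁ (fun j hj hne => hno j hj hne)
    rw [hsum] at e1
    apply he₁
    apply p_inj (p := p) hq hE hpq
    rw [smul_comm, e1, S_fixed (hwp j₁)]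
  set a₁ := S p (w j₁) e₀ with ha₁def
  set a₂ := S p (w j₂) e₁ with ha₂def
  have hfix₁ : w j₁ • a₁ = a₁ := S_fixed (hwp j₁) e₀
  have hfix₂ : w j₂ • a₂ = a₂ := S_fixed (hwp j₂) e₁
  have hst₁ : Subgroup.zpowers (w j₁) ≤ MulAction.stabilizer P a₁ :=
    (Subgroup.zpowers_le).mpr hfix₁
  have hst₂ : Subgroup.zpowers (w j₂) ≤ MulAction.stabilizer P a₂ :=
    (Subgroup.zpowers_le).mpr hfix₂
  have hVW₁ : Subgroup.zpowers (w j₁) ≤ V := (Subgroup.zpowers_le).mpr (hwV j₁)
  have hVW₂ : Subgroup.zpowers (w j₂) ≤ V := (Subgroup.zpowers_le).mpr (hwV j₂)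
  have hcW₁ := hcardz _ (hw1 j₁) (hwp j₁)
  have hcW₂ := hcardz _ (hw1 j₂) (hwp j₂)
  have hWne : Subgroup.zpowers (w j₁) ≠ Subgroup.zpowers (w j₂) := by
    intro e
    have h1 : w j₂ ∈ Subgroup.zpowers (w j₁) := by
      rw [e]; exact Subgroup.mem_zpowers _
    have h2 : w j₂ ∈ MulAction.stabilizer P a₁ := hst₁ h1
    have h3 : w j₁ ∈ MulAction.stabilizer P a₁ := hst₁ (Subgroup.mem_zpowers _)
    have h4 : (z ^ j₁)⁻¹ * z ^ j₂ ∈ MulAction.stabilizer P a₁ := by
      have e1 : (z ^ j₁)⁻¹ * z ^ j₂ = (w j₁)⁻¹ * w j₂ := by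
        show _ = (y * z ^ j₁)⁻¹ * (y * z ^ j₂)
        group
      rw [e1]
      exact Subgroup.mul_mem _ (Subgroup.inv_mem _ h3) h2
    have h5 : (z ^ j₁)⁻¹ * z ^ j₂ ≠ 1 := by
      intro e2
      have e3 : z ^ j₁ = z ^ j₂ := (inv_mul_eq_one.mp e2)
      have hi1 : j₁ ∈ Set.Iio (orderOf z) := by
        rw [hzo]; exact Finset.mem_range.mp hj₁
      have hi2 : j₂ ∈ Set.Iio (orderOf z) := by
        rw [hzo]; exact Finset.mem_range.mp hj₂
      exact hj₁₂ ((pow_injOn_Iio_orderOf hi1 hi2 e3).symm)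
    have h6 : (z ^ j₁)⁻¹ * z ^ j₂ ∈ Subgroup.center P :=
      Subgroup.mul_mem _ (Subgroup.inv_mem _ (Subgroup.pow_mem _ hzc _)) (Subgroup.pow_mem _ hzc _)
    have h7 : ((z ^ j₁)⁻¹ * z ^ j₂) ^ p = 1 :=
      hVe.2 _ (V.mul_mem (V.inv_mem (V.pow_mem hzV _)) (V.pow_mem hzV _))
    exact ha₁ (hfpf _ h6 h5 h7 a₁ h4)
  have hsum0 : a₁ + a₂ ≠ 0 := by
    intro h0
    have e1 : a₂ = -a₁ := eq_neg_of_add_eq_zero_right h0
    apply ha₁
    apply hA _ _ hVW₁ hVW₂ hcW₁ hcW₂ hWne a₁ hst₁
    intro v hv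
    have : v • a₂ = a₂ := hst₂ hv
    rw [e1, smul_neg, neg_inj] at this
    exact this
  have hle₁ : MulAction.stabilizer P (a₁ + a₂) ≤ MulAction.stabilizer P a₁ := by
    intro g hg
    exact hM _ (hwV j₁) (hw1 j₁) _ hVW₂ hcW₂ hWne a₁ a₂ ha₁ hfix₁ hst₂ g hg
  have hle₂ : MulAction.stabilizer P (a₁ + a₂) ≤ MulAction.stabilizer P a₂ := by
    intro g hg
    have hg' : g • (a₂ + a₁) = a₂ + a₁ := by
      rw [add_comm a₂ a₁]
      exact hg
    exact hM _ (hwV j₂) (hw1 j₂) _ hVW₁ hcW₁ hWne.symm a₂ a₁ ha₂ hfix₂ hst₁ g hg'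
  have he₁' : MulAction.stabilizer P (a₁ + a₂) = MulAction.stabilizer P a₁ :=
    Subgroup.eq_of_le_of_card_ge hle₁ (hconst _ _ ha₁ hsum0).le
  have he₂' : MulAction.stabilizer P (a₁ + a₂) = MulAction.stabilizer P a₂ :=
    Subgroup.eq_of_le_of_card_ge hle₂ (hconst _ _ ha₂ hsum0).le
  apply ha₁
  apply hA _ _ hVW₁ hVW₂ hcW₁ hcW₂ hWne a₁ hst₁
  rw [← he₁', he₂']
  exact hst₂

theorem main (hp2 : p ≠ 2) (hP : IsPGroup p P) (hq : q.Prime) (hE : ∀ e : E, q • e = 0)
    (hconst : ∀ a b : E, a ≠ 0 → b ≠ 0 →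
      Nat.card (MulAction.stabilizer P a) = Nat.card (MulAction.stabilizer P b)) :
    IsCyclic P ∧ ∀ g : P, g ≠ 1 → ∀ a : E, g • a = a → a = 0 := by
  classical
  have hpp : p.Prime := Fact.out
  by_cases hpq : q = p
  · subst hpq
    -- a fixed vector
    have hPE : IsPGroup q (Multiplicative E) := by
      intro e
      refine ⟨1, ?_⟩
      rw [pow_one]
      have := hE (Multiplicative.toAdd e)
      exact this
    obtain ⟨n, hn⟩ := IsPGroup.iff_card.mp hPE
    have htriv : ∀ g : P, ∀ e : E, g • e = e := by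
      by_cases hE0 : ∀ e : E, e = 0
      · intro g e
        rw [hE0 e, smul_zero]
      push Not at hE0
      obtain ⟨e₀, he₀⟩ := hE0
      have hn0 : n ≠ 0 := by
        rintro rfl
        rw [pow_zero] at hn
        haveI : Subsingleton (Multiplicative E) := (Nat.card_eq_one_iff_unique.mp hn).1
        apply he₀
        exact Multiplicative.ofAdd.injective (Subsingleton.elim _ _)
      have hdvd : q ∣ Nat.card E := by
        have : Nat.card E = Nat.card (Multiplicative E) := rfl
        rw [this, hn]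
        exact dvd_pow_self _ hn0
      have h0fix : (0 : E) ∈ MulAction.fixedPoints P E := by
        intro g
        exact smul_zero g
      obtain ⟨b, hb, hb0⟩ := hP.exists_fixed_point_of_prime_dvd_card_of_fixed_point E hdvd h0fix
      have hb0' : b ≠ 0 := fun e => hb0 e.symm
      have htop : MulAction.stabilizer P b = ⊤ := by
        rw [eq_top_iff]
        intro g _
        exact hb g
      intro g e
      by_cases he : e = 0
      · rw [he, smul_zero]
      have hcard := hconst e b he hb0'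
      have : MulAction.stabilizer P e = ⊤ := by
        apply Subgroup.eq_top_of_card_eq
        rw [hcard, htop]
        exact Subgroup.card_top
      have hg : g ∈ MulAction.stabilizer P e := by
        rw [this]; exact Subgroup.mem_top g
      exact hg
    have h1 : ∀ g : P, g = 1 := by
      intro g
      by_contra hg
      obtain ⟨e, he⟩ := exists_smul_ne (E := E) hg
      exact he (htriv g e)
    haveI : Subsingleton P := ⟨fun a b => by rw [h1 a, h1 b]⟩
    exact ⟨inferInstance, fun g hg => absurd (h1 g) hg⟩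
  · have hcyc := isCyclic_of_ne hp2 hP hq hE hpq hconst
    refine ⟨hcyc, ?_⟩
    intro g hg a ha
    obtain ⟨k, hk⟩ := (IsPGroup.iff_orderOf (p := p)).mp hP g
    have hk0 : k ≠ 0 := by
      rintro rfl
      rw [pow_zero, orderOf_eq_one_iff] at hk
      exact hg hk
    obtain ⟨l, rfl⟩ := Nat.exists_eq_succ_of_ne_zero hk0
    have hz1 : g ^ (p ^ l) ≠ 1 := by
      apply pow_ne_one_of_lt_orderOf
      · have := hpp.pos
        positivity
      · rw [hk, pow_succ]
        have : 0 < p ^ l := by have := hpp.pos; positivity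
        have h2 := hpp.one_lt
        nlinarith
    have hzp : (g ^ (p ^ l)) ^ p = 1 := by
      rw [← pow_mul, ← pow_succ, ← hk, pow_orderOf_eq_one]
    have hzc : g ^ (p ^ l) ∈ Subgroup.center P := by
      rw [Subgroup.mem_center_iff]
      intro x
      exact (IsCyclic.commGroup (α := P)).mul_comm _ _
    exact central_fpf hq hE hpq hconst hzc hz1 hzp (pow_smul_of_fix ha _)

end

end Cfsg.Agent.Lib.RankOne.ConstStab
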