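import Cfsg.Agent.Lib.RankOne.Canon
import Cfsg.Agent.Lib.RankOne.OddInvert

/-!
Involutions in the rank-one set-up: products of involutions with distinct fixed points have odd order, all
involutions are conjugate, the set `K` of elements of `D` inverted by `t` acts regularly on the involutions
of `G_a`, and the structure equation.
-/

set_option autoImplicit false

namespace Cfsg.Agent.Lib.RankOne.Invol

open Cfsg.Agent.Lib.RankOne.Basic Cfsg.Agent.Lib.RankOne.Canon

variable {G Ω : Type*} [Group G] [MulAction G Ω] {a : Ω} {t : G} {Q : Subgroup G}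

/-- Two involutions with product of odd order are conjugate under an involution. -/
theorem conj_of_odd {H : Type*} [Group H] {s u : H} (hs : s * s = 1) (hu : u * u = 1)
    (hodd : Odd (orderOf (s * u))) : ∃ w : H, w * w = 1 ∧ w * s * w = u := by
  have hsi : s⁻¹ = s := inv_eq_of_mul_eq_one_left hs
  have hui : u⁻¹ = u := inv_eq_of_mul_eq_one_left hu
  obtain ⟨m, hm⟩ := hodd
  set x := s * u with hx
  have hxinv : x⁻¹ = u * s := by
    rw [hx, mul_inv_rev, hsi, hui]
  have hconj : s * x * s⁻¹ = x⁻¹ := by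
    rw [hxinv, hx, hsi]
    calc s * (s * u) * s = (s * s) * u * s := by group
      _ = u * s := by rw [hs]; group
  have hpow : ∀ k : ℕ, s * x ^ k * s⁻¹ = (x⁻¹) ^ k := by
    intro k
    rw [← hconj, conj_pow]
  have h1 : x ^ (2 * m + 1) = 1 := by
    rw [← hm]
    exact pow_orderOf_eq_one x
  have h2 : x ^ (2 * m) = x⁻¹ := by
    rw [eq_inv_iff_mul_eq_one, ← pow_succ]
    exact h1
  refine ⟨x ^ m * s, ?_, ?_⟩
  · calc x ^ m * s * (x ^ m * s) = x ^ m * (s * x ^ m * s⁻¹) * (s * s) := by group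
      _ = x ^ m * (x⁻¹) ^ m := by rw [hpow, hs, mul_one]
      _ = 1 := by rw [inv_pow]; group
  · calc x ^ m * s * s * (x ^ m * s) = x ^ m * (s * s) * (x ^ m * s) := by group
      _ = x ^ m * (x ^ m * s) := by rw [hs, mul_one]
      _ = x ^ (2 * m) * s := by rw [two_mul, pow_add]; group
      _ = x⁻¹ * s := by rw [h2]
      _ = u * s * s := by rw [hxinv]
      _ = u * (s * s) := by group
      _ = u := by rw [hs, mul_one]

/-- Each involution `u` inverts... involution commuting lemma: in a dihedral situation, if the order of `s u`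
is even then a power `z` of `s u` is an involution commuting with both `s` and `u`. -/
theorem exists_central_of_even {H : Type*} [Group H] [Finite H] {s u : H} (hs : s * s = 1) (hu : u * u = 1)
    (heven : ¬ Odd (orderOf (s * u))) : ∃ z : H, z ≠ 1 ∧ z * z = 1 ∧ s * z = z * s ∧ u * z = z * u := by
  have hsi : s⁻¹ = s := inv_eq_of_mul_eq_one_left hs
  have hui : u⁻¹ = u := inv_eq_of_mul_eq_one_left hu
  set x := s * u with hx
  have hpos : 0 < orderOf x := orderOf_pos x
  obtain ⟨k, hk⟩ : Even (orderOf x) := Nat.not_odd_iff_even.1 heven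
  have hk0 : 0 < k := by omega
  have hz1 : x ^ k ≠ 1 := pow_ne_one_of_lt_orderOf (by omega) (by omega)
  have hz2 : x ^ k * x ^ k = 1 := by
    rw [← pow_add, ← hk]
    exact pow_orderOf_eq_one x
  have hzi : (x ^ k)⁻¹ = x ^ k := inv_eq_of_mul_eq_one_left hz2
  have hxinv : x⁻¹ = u * s := by
    rw [hx, mul_inv_rev, hsi, hui]
  have h1 : s * x * s⁻¹ = x⁻¹ := by
    rw [hxinv, hx, hsi]
    calc s * (s * u) * s = (s * s) * u * s := by group
      _ = u * s := by rw [hs]; group
  have h2 : u * x * u⁻¹ = x⁻¹ := by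
    rw [hxinv, hx, hui]
    calc u * (s * u) * u = u * s * (u * u) := by group
      _ = u * s := by rw [hu, mul_one]
  refine ⟨x ^ k, hz1, hz2, ?_, ?_⟩
  · have h3 : s * x ^ k * s⁻¹ = x ^ k := by
      rw [← conj_pow, h1, inv_pow, hzi]
    rw [mul_inv_eq_iff_eq_mul] at h3
    exact h3
  · have h3 : u * x ^ k * u⁻¹ = x ^ k := by
      rw [← conj_pow, h2, inv_pow, hzi]
    rw [mul_inv_eq_iff_eq_mul] at h3
    exact h3

section Finite

variable [Finite G]

/-- An involution fixing `c` and an involution moving `c` have product of odd order. -/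
theorem odd_of_fix (hS : Cfsg.IsRankOneSetup G Ω a t Q) {s u : G} (hs1 : s ≠ 1) (hs2 : s * s = 1)
    (hu2 : u * u = 1) {c : Ω} (hsc : s • c = c) (huc : u • c ≠ c) : Odd (orderOf (s * u)) := by
  by_contra heven
  obtain ⟨z, hz1, hz2, h1, h2⟩ := exists_central_of_even hs2 hu2 heven
  have hzc : z • c = c := fix_of_commute hS hs1 hs2 h1 hsc
  have : u • c = c := fix_of_commute hS hz1 hz2 (h2.symm) hzc
  exact huc this

/-- Unique fixed point: two fixed points of an involution coincide. -/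
theorem fix_unique (hS : Cfsg.IsRankOneSetup G Ω a t Q) {u : G} (hu1 : u ≠ 1) (hu2 : u * u = 1) {c d : Ω}
    (hc : u • c = c) (hd : u • d = d) : c = d := by
  obtain ⟨e, _, he⟩ := exists_unique_fix hS hu1 hu2
  rw [he c hc, he d hd]

theorem conj_of_fix_ne (hS : Cfsg.IsRankOneSetup G Ω a t Q) {s u : G} (hs1 : s ≠ 1) (hs2 : s * s = 1)
    (hu2 : u * u = 1) {c : Ω} (hsc : s • c = c) (huc : u • c ≠ c) : ∃ g : G, g * s * g⁻¹ = u := by
  obtain ⟨w, hw, e⟩ := conj_of_odd hs2 hu2 (odd_of_fix hS hs1 hs2 hu2 hsc huc)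
  refine ⟨w, ?_⟩
  rw [inv_eq_of_mul_eq_one_left hw]
  exact e

omit [Finite G] in
theorem conj_ne_one {u g : G} (hu : u ≠ 1) : g * u * g⁻¹ ≠ 1 := by
  intro h
  apply hu
  have : u = g⁻¹ * (g * u * g⁻¹) * g := by group
  rw [this, h]; group

omit [Finite G] in
theorem conj_sq {u g : G} (hu : u * u = 1) : (g * u * g⁻¹) * (g * u * g⁻¹) = 1 := by
  have : (g * u * g⁻¹) * (g * u * g⁻¹) = g * (u * u) * g⁻¹ := by group
  rw [this, hu]; group

/-- All involutions are conjugate. -/
theorem all_conj (hS : Cfsg.IsRankOneSetup G Ω a t Q) {u v : G} (hu1 : u ≠ 1) (hu2 : u * u = 1)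
    (hv1 : v ≠ 1) (hv2 : v * v = 1) : ∃ g : G, g * u * g⁻¹ = v := by
  obtain ⟨c, hc⟩ := exists_fix hS hu2
  by_cases hvc : v • c = c
  · -- choose `d ≠ c`
    obtain ⟨d, hd⟩ : ∃ d : Ω, d ≠ c := by
      by_cases h : c = a
      · exact ⟨t • a, by rw [h]; exact ta_ne hS⟩
      · exact ⟨a, fun h' => h h'.symm⟩
    obtain ⟨g, hg₁, -⟩ := two_trans hS (x₁ := c) (x₂ := d) (y₁ := d) (y₂ := c) hd.symm hd
    have hw1 : g * u * g⁻¹ ≠ 1 := conj_ne_one hu1
    have hw2 := conj_sq (g := g) hu2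
    have hwd : (g * u * g⁻¹) • d = d := by
      rw [← hg₁]
      simp [mul_smul, hc]
    have hwc : (g * u * g⁻¹) • c ≠ c := by
      intro h
      exact hd (fix_unique hS hw1 hw2 hwd h)
    obtain ⟨g₂, hg₂⟩ := conj_of_fix_ne hS hv1 hv2 hw2 hvc hwc
    refine ⟨g₂⁻¹ * g, ?_⟩
    have : g₂⁻¹ * g * u * (g₂⁻¹ * g)⁻¹ = g₂⁻¹ * (g * u * g⁻¹) * g₂ := by group
    rw [this, ← hg₂]
    group
  · exact conj_of_fix_ne hS hu1 hu2 hv2 hc hvc

/-- The set `K` of elements of `D` inverted by `t`. -/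
abbrev KK (G : Type*) {Ω : Type*} [Group G] [MulAction G Ω] (a : Ω) (t : G) : Set G :=
  Cfsg.invertedBy (DD G a t) t

/-- The involutions of `G_a`. -/
abbrev IA (G : Type*) {Ω : Type*} [Group G] [MulAction G Ω] (a : Ω) : Set G :=
  Cfsg.involutionsIn (MulAction.stabilizer G a : Set G)

omit [Finite G] in
theorem mem_KK {k : G} : k ∈ KK G a t ↔ k ∈ DD G a t ∧ t * k * t⁻¹ = k⁻¹ := Iff.rfl

omit [Finite G] in
theorem mem_IA {s : G} : s ∈ IA G a ↔ s • a = a ∧ s ≠ 1 ∧ s * s = 1 := Iff.rfl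

omit [Finite G] in
/-- `k ∈ K` means that `t k` is an involution (interchanging `a` and `t a`). -/
theorem t_mul_sq_of_KK (hS : Cfsg.IsRankOneSetup G Ω a t Q) {k : G} (hk : k ∈ KK G a t) :
    (t * k) * (t * k) = 1 := by
  have h := hk.2
  rw [t_inv hS] at h
  calc (t * k) * (t * k) = (t * k * t) * k := by group
    _ = 1 := by rw [h]; group

omit [Finite G] in
/-- Conversely: an involution interchanging `a` and `t a` is `t k` with `k ∈ K`. -/
theorem t_mul_mem_KK (hS : Cfsg.IsRankOneSetup G Ω a t Q) {u : G} (hu : u * u = 1)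
    (hua : u • a = t • a) : t * u ∈ KK G a t := by
  have hui : u⁻¹ = u := inv_eq_of_mul_eq_one_left hu
  have hub : u • t • a = a := by
    rw [← hua, smul_smul, hu, one_smul]
  refine ⟨mem_DD.2 ⟨?_, ?_⟩, ?_⟩
  · rw [mul_smul, hua, t_t_smul hS]
  · rw [mul_smul, hub]
  · rw [t_inv hS, mul_inv_rev, hui, t_inv hS]
    calc t * (t * u) * t = (t * t) * u * t := by group
      _ = u * t := by rw [hS.mul_self]; group

/-- For `s, s'` involutions of `G_a` there is `k ∈ K` with `k⁻¹ s k = s'`. -/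
theorem exists_K_conj (hS : Cfsg.IsRankOneSetup G Ω a t Q) {s s' : G} (hs : s ∈ IA G a) (hs' : s' ∈ IA G a) :
    ∃ k ∈ KK G a t, k⁻¹ * s * k = s' := by
  obtain ⟨hsa, hs1, hs2⟩ := hs
  obtain ⟨hsa', hs1', hs2'⟩ := hs'
  have hsa0 : s • a = a := hsa
  have hsa0' : s' • a = a := hsa'
  set r := t * s * t with hr
  have hti : t⁻¹ = t := t_inv hS
  have hr2 : r * r = 1 := by
    have h := conj_sq (g := t) hs2
    rwa [hti] at h
  have hr1 : r ≠ 1 := by
    have h := conj_ne_one (g := t) hs1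
    rwa [hti] at h
  have hrb : r • (t • a) = t • a := by
    rw [hr]
    simp only [mul_smul]
    rw [t_t_smul hS, hsa0]
  have hra : r • a ≠ a := by
    intro h
    exact (ta_ne hS) (fix_unique hS hr1 hr2 hrb h)
  obtain ⟨w, hw, e⟩ := conj_of_odd hs2' hr2 (odd_of_fix hS hs1' hs2' hr2 hsa0' hra)
  have hwi : w⁻¹ = w := inv_eq_of_mul_eq_one_left hw
  have hwa : w • a = t • a := by
    apply fix_unique hS hr1 hr2 _ hrb
    rw [← e]
    simp only [mul_smul]
    rw [← mul_smul w w, hw, one_smul, hsa0']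
  have hk := t_mul_mem_KK hS hw hwa
  refine ⟨t * w, hk, ?_⟩
  have h2 : s' = w * r * w := by
    rw [← e]
    calc s' = (w * w) * s' * (w * w) := by rw [hw]; group
      _ = _ := by group
  rw [h2, mul_inv_rev, hwi, hti, hr]
  group

/-- Counting. -/
theorem card_KK_eq (hS : Cfsg.IsRankOneSetup G Ω a t Q) : Nat.card (KK G a t) = Nat.card (IA G a) := by
  classical
  haveI := finite_omega hS
  have hti : t⁻¹ = t := t_inv hS
  let T := {u : G // u ≠ 1 ∧ u * u = 1 ∧ u • a ≠ a}
  have hQa : ∀ y ∈ Q, y • a = a := fun y hy => hS.le hy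
  have hQa' : ∀ y ∈ Q, y⁻¹ • a = a := fun y hy => hS.le (inv_mem hy)
  -- first bijection
  have h1 : Nat.card (Q × KK G a t) = Nat.card T := by
    refine Nat.card_congr (Equiv.ofBijective
      (fun p : Q × KK G a t => (⟨(p.1 : G) * (t * (p.2 : G)) * (p.1 : G)⁻¹, ?_⟩ : T)) ⟨?_, ?_⟩)
    · have hk := p.2.2
      have hy := p.1.2
      have h1 : t * (p.2 : G) ≠ 1 := by
        intro h
        have h3 : (t * (p.2 : G)) • a = t • a := by
          rw [mul_smul, hk.1.1]
        rw [h, one_smul] at h3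
        exact (ta_ne hS) h3.symm
      refine ⟨conj_ne_one h1, conj_sq (t_mul_sq_of_KK hS hk), ?_⟩
      simp only [mul_smul]
      rw [hQa' _ hy, hk.1.1]
      exact Q_smul_ne hS hy (ta_ne hS)
    · rintro ⟨⟨y, hy⟩, ⟨k, hk⟩⟩ ⟨⟨y', hy'⟩, ⟨k', hk'⟩⟩ h
      have h' : y * (t * k) * y⁻¹ = y' * (t * k') * y'⁻¹ := congrArg Subtype.val h
      have h2 : y • t • a = y' • t • a := by
        have h3 := congrArg (fun g : G => g • a) h'
        have hka : k • a = a := hk.1.1
        have hka' : k' • a = a := hk'.1.1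
        simpa only [mul_smul, hQa' _ hy, hQa' _ hy', hka, hka'] using h3
      have h3 : y = y' := Q_unique hS hy hy' (ta_ne hS) h2
      subst h3
      have h4 : k = k' := by
        have h5 : t * k = t * k' := by
          exact mul_left_cancel (mul_right_cancel h')
        exact mul_left_cancel h5
      subst h4
      rfl
    · rintro ⟨u, hu1, hu2, hua⟩
      obtain ⟨y, hy, hyc⟩ := exists_Q_smul hS hua
      have hu'2 : (y⁻¹ * u * y⁻¹⁻¹) * (y⁻¹ * u * y⁻¹⁻¹) = 1 := conj_sq hu2
      rw [inv_inv] at hu'2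
      have hu'a : (y⁻¹ * u * y) • a = t • a := by
        simp only [mul_smul]
        rw [hQa y hy, ← hyc, inv_smul_smul]
      have hk := t_mul_mem_KK hS hu'2 hu'a
      refine ⟨(⟨y, hy⟩, ⟨_, hk⟩), Subtype.ext ?_⟩
      change y * (t * (t * (y⁻¹ * u * y))) * y⁻¹ = u
      calc y * (t * (t * (y⁻¹ * u * y))) * y⁻¹ = y * (t * t) * y⁻¹ * u * y * y⁻¹ := by group
        _ = u := by rw [hS.mul_self]; group
  -- second bijection
  have h2 : Nat.card (Q × IA G a) = Nat.card T := by
    refine Nat.card_congr (Equiv.ofBijective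
      (fun p : Q × IA G a => (⟨(p.1 : G) * (t * (p.2 : G) * t) * (p.1 : G)⁻¹, ?_⟩ : T)) ⟨?_, ?_⟩)
    · obtain ⟨hsa, hs1, hs2⟩ := p.2.2
      have hy := p.1.2
      have h1 : t * (p.2 : G) * t ≠ 1 := by
        have h := conj_ne_one (g := t) hs1
        rwa [hti] at h
      have h3 : (t * (p.2 : G) * t) * (t * (p.2 : G) * t) = 1 := by
        have h := conj_sq (g := t) hs2
        rwa [hti] at h
      refine ⟨conj_ne_one h1, conj_sq h3, ?_⟩
      intro h4
      have h5 : ((p.1 : G) * (t * (p.2 : G) * t) * (p.1 : G)⁻¹) • ((p.1 : G) • t • a) = (p.1 : G) • t • a := by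
        simp only [mul_smul, inv_smul_smul]
        rw [t_t_smul hS]
        have hsa0 : (p.2 : G) • a = a := hsa
        rw [hsa0]
      have h6 := fix_unique hS (conj_ne_one h1) (conj_sq h3) h5 h4
      exact Q_smul_ne hS hy (ta_ne hS) h6
    · rintro ⟨⟨y, hy⟩, ⟨s, hs⟩⟩ ⟨⟨y', hy'⟩, ⟨s', hs'⟩⟩ h
      have h' : y * (t * s * t) * y⁻¹ = y' * (t * s' * t) * y'⁻¹ := congrArg Subtype.val h
      obtain ⟨hsa, hs1, hs2⟩ := hs
      obtain ⟨hsa', hs1', hs2'⟩ := hs'
      have hsa0 : s • a = a := hsa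
      have hsa0' : s' • a = a := hsa'
      have h1 : t * s * t ≠ 1 := by
        have h := conj_ne_one (g := t) hs1
        rwa [hti] at h
      have h3 : (t * s * t) * (t * s * t) = 1 := by
        have h := conj_sq (g := t) hs2
        rwa [hti] at h
      have h5 : (y * (t * s * t) * y⁻¹) • (y • t • a) = y • t • a := by
        simp only [mul_smul, inv_smul_smul]
        rw [t_t_smul hS, hsa0]
      have h6 : (y * (t * s * t) * y⁻¹) • (y' • t • a) = y' • t • a := by
        rw [h']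
        simp only [mul_smul, inv_smul_smul]
        rw [t_t_smul hS, hsa0']
      have h7 := fix_unique hS (conj_ne_one h1) (conj_sq h3) h5 h6
      have h8 : y = y' := Q_unique hS hy hy' (ta_ne hS) h7
      subst h8
      have h9 : t * s * t = t * s' * t := mul_left_cancel (mul_right_cancel h')
      have h10 : s = s' := mul_left_cancel (mul_right_cancel h9)
      subst h10
      rfl
    · rintro ⟨u, hu1, hu2, hua⟩
      obtain ⟨c, hc⟩ := exists_fix hS hu2
      have hca : c ≠ a := by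
        rintro rfl
        exact hua hc
      obtain ⟨y, hy, hyc⟩ := exists_Q_smul hS hca
      refine ⟨(⟨y, hy⟩, ⟨t * (y⁻¹ * u * y) * t, ?_⟩), Subtype.ext ?_⟩
      · have hu'2 : (y⁻¹ * u * y⁻¹⁻¹) * (y⁻¹ * u * y⁻¹⁻¹) = 1 := conj_sq hu2
        rw [inv_inv] at hu'2
        have hu'1 : y⁻¹ * u * y ≠ 1 := by
          have h := conj_ne_one (g := y⁻¹) hu1
          rwa [inv_inv] at h
        refine ⟨?_, ?_, ?_⟩
        · change (t * (y⁻¹ * u * y) * t) • a = a
          simp only [mul_smul]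
          rw [hyc, hc, inv_smul_eq_iff.2 hyc.symm, t_t_smul hS]
        · have h := conj_ne_one (g := t) hu'1
          rwa [hti] at h
        · have h := conj_sq (g := t) hu'2
          rwa [hti] at h
      · change y * (t * (t * (y⁻¹ * u * y) * t) * t) * y⁻¹ = u
        calc y * (t * (t * (y⁻¹ * u * y) * t) * t) * y⁻¹
            = y * (t * t) * y⁻¹ * u * y * (t * t) * y⁻¹ := by group
          _ = u := by rw [hS.mul_self]; group
  rw [Nat.card_prod] at h1 h2
  have hQpos : 0 < Nat.card Q := Nat.card_pos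
  exact Nat.eq_of_mul_eq_mul_left hQpos (h1.trans h2.symm)

/-- The structure equation: existence. -/
theorem exists_structure (hS : Cfsg.IsRankOneSetup G Ω a t Q) :
    ∃ s r : G, s ∈ IA G a ∧ r ∈ Q ∧ t * s * t = r⁻¹ * t * r := by
  have hti : t⁻¹ = t := t_inv hS
  obtain ⟨c, hc⟩ := exists_fix hS hS.mul_self
  have hca : c ≠ a := by
    rintro rfl
    exact ta_ne hS hc
  obtain ⟨r, hr, hrc⟩ := exists_Q_smul hS hca
  refine ⟨t * (r⁻¹ * t * r) * t, r, ⟨?_, ?_, ?_⟩, hr, ?_⟩
  · change (t * (r⁻¹ * t * r) * t) • a = a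
    simp only [mul_smul]
    rw [hrc, hc, inv_smul_eq_iff.2 hrc.symm, t_t_smul hS]
  · have h1 := conj_ne_one (g := r⁻¹) hS.ne_one
    rw [inv_inv] at h1
    have h := conj_ne_one (g := t) h1
    rwa [hti] at h
  · have h1 := conj_sq (g := r⁻¹) hS.mul_self
    rw [inv_inv] at h1
    have h := conj_sq (g := t) h1
    rwa [hti] at h
  · calc t * (t * (r⁻¹ * t * r) * t) * t = (t * t) * (r⁻¹ * t * r) * (t * t) := by group
      _ = _ := by rw [hS.mul_self]; group

/-- The structure equation: uniqueness. -/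
theorem structure_unique (hS : Cfsg.IsRankOneSetup G Ω a t Q) {s r s' r' : G}
    (hs : s ∈ IA G a) (hr : r ∈ Q) (e : t * s * t = r⁻¹ * t * r)
    (hs' : s' ∈ IA G a) (hr' : r' ∈ Q) (e' : t * s' * t = r'⁻¹ * t * r') : s = s' ∧ r = r' := by
  have key : ∀ s₀ r₀ : G, s₀ ∈ IA G a → t * s₀ * t = r₀⁻¹ * t * r₀ → t • (r₀ • t • a) = r₀ • t • a := by
    intro s₀ r₀ hs₀ e₀
    have h1 : (t * s₀ * t) • t • a = t • a := by
      simp only [mul_smul]
      rw [t_t_smul hS]
      have : s₀ • a = a := hs₀.1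
      rw [this]
    rw [e₀] at h1
    simp only [mul_smul] at h1
    rw [inv_smul_eq_iff] at h1
    exact h1
  have h1 := key s r hs e
  have h2 := key s' r' hs' e'
  have h3 : r • t • a = r' • t • a := fix_unique hS hS.ne_one hS.mul_self h1 h2
  have h4 : r = r' := Q_unique hS hr hr' (ta_ne hS) h3
  subst h4
  refine ⟨?_, rfl⟩
  have h5 : t * s * t = t * s' * t := e.trans e'.symm
  exact mul_left_cancel (mul_right_cancel h5)

end Finite

end Cfsg.Agent.Lib.RankOne.Invol
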