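import Cfsg.Agent.Lib.RankOne.Invol

/-!
Structure of the rank-one set-up: subsets of `D` with a third fixed point, the centraliser `C_D(t)`,
fixed-point-freeness of elements inverted by `t`.
-/

set_option autoImplicit false

namespace Cfsg.Agent.Lib.RankOne.Struct

open Cfsg.Agent.Lib.RankOne.Basic Cfsg.Agent.Lib.RankOne.Canon Cfsg.Agent.Lib.RankOne.Invol

variable {G Ω : Type*} [Group G] [MulAction G Ω] {a : Ω} {t : G} {Q : Subgroup G}

/-- An element of a subgroup of odd order is a power of its square, so it commutes with whatever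
its square commutes with. -/
theorem commute_of_sq_commute {M : Type*} [Group M] {X : Subgroup M} (hodd : Odd (Nat.card X)) {h x : M}
    (hh : h ∈ X) (e : (h * h) * x = x * (h * h)) : h * x = x * h := by
  obtain ⟨n, hn⟩ := hodd
  have h3 : h ^ Nat.card X = 1 := Cfsg.Agent.Lib.RankOne.OddInvert.pow_card_sub hh
  have h5 : (h * h) ^ (n + 1) = h := by
    have h6 : (h * h) ^ (n + 1) = h ^ (2 * (n + 1)) := by
      rw [pow_mul, pow_two]
    rw [h6]
    have h7 : 2 * (n + 1) = Nat.card X + 1 := by omega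
    rw [h7, pow_succ, h3, one_mul]
  have h8 : Commute ((h * h) ^ (n + 1)) x := Commute.pow_left e _
  rw [h5] at h8
  exact h8

section Finite

variable [Finite G]

omit [Finite G] in
theorem odd_D (hS : Cfsg.IsRankOneSetup G Ω a t Q) : Odd (Nat.card (DD G a t)) := hS.odd_card

omit [Finite G] in
/-- `x ∈ D` fixes `r • t • a` when commuting with `r`. -/
theorem fix_of_commute_Q (_hS : Cfsg.IsRankOneSetup G Ω a t Q) {x r : G} (hx : x ∈ DD G a t) (e : x * r = r * x) :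
    x • r • t • a = r • t • a := by
  rw [← mul_smul, e, mul_smul, hx.2]

omit [Finite G] in
/-- `x ∈ D` commutes with `r ∈ Q` when fixing `r • t • a`. -/
theorem commute_Q_of_fix (hS : Cfsg.IsRankOneSetup G Ω a t Q) {x r : G} (hx : x ∈ DD G a t) (hr : r ∈ Q)
    (e : x • r • t • a = r • t • a) : x * r = r * x := by
  have h1 : x * r * x⁻¹ ∈ Q := hS.conj_mem x hx.1 r hr
  have h2 : (x * r * x⁻¹) • t • a = r • t • a := by
    simp only [mul_smul]
    have hxi : x⁻¹ • t • a = t • a := (inv_mem hx).2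
    rw [hxi, e]
  have h3 := Q_unique hS h1 hr (ta_ne hS) h2
  rw [mul_inv_eq_iff_eq_mul] at h3
  exact h3

omit [Finite G] in
/-- Elements of `D` conjugated by `t` and by `h ∈ D`: `x ∈ D` commuting with `r ∈ Q`, `r ≠ 1`; then
the `h`-part of `t r t` conjugates `x` to `t x t`. -/
theorem exists_h (hS : Cfsg.IsRankOneSetup G Ω a t Q) {r : G} (hr : r ∈ Q) (hr1 : r ≠ 1) :
    ∃ h ∈ DD G a t, ∀ x ∈ DD G a t, x * r = r * x → t * x * t = h * x * h⁻¹ := by
  obtain ⟨g, hg, h, hh, f, hf, e⟩ := canon_exists' hS (t_conj_not_fix hS hr hr1)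
  exact ⟨h, hh, fun x hx hrx => t_conj_eq_of_commute hS hx hrx hg hh hf e⟩

/-- A non-identity element of `D` inverted by `t` commutes with no non-identity element of `Q`. -/
theorem KK_fpf (hS : Cfsg.IsRankOneSetup G Ω a t Q) {x r : G} (hx : x ∈ KK G a t) (hx1 : x ≠ 1)
    (hr : r ∈ Q) (e : x * r = r * x) : r = 1 := by
  by_contra hr1
  obtain ⟨h, hh, hh'⟩ := exists_h hS hr hr1
  have h1 := hh' x hx.1 e
  have h2 : t * x * t = x⁻¹ := by
    have := hx.2
    rwa [t_inv hS] at this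
  rw [h2] at h1
  have h3 := Cfsg.Agent.Lib.RankOne.OddInvert.commute_of_inverts (odd_D hS) hh h1.symm
  have h4 : h * x * h⁻¹ = x := by
    rw [h3]; group
  rw [h4] at h1
  apply hx1
  apply DD_sq hS hx.1
  calc x * x = x * x⁻¹ := by rw [h1]
    _ = 1 := by group

/-- Commuting with `r ≠ 1` produces an involution commuting with `X` and interchanging `a`, `t • a`. -/
theorem exists_invol_comm (hS : Cfsg.IsRankOneSetup G Ω a t Q) {r : G} (hr : r ∈ Q) (hr1 : r ≠ 1)
    {X : Set G} (hX : X ⊆ (DD G a t : Set G)) (hXr : ∀ x ∈ X, x * r = r * x) :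
    ∃ u : G, u * u = 1 ∧ u • a = t • a ∧ ∀ x ∈ X, x * u = u * x := by
  obtain ⟨h, hh, hh'⟩ := exists_h hS hr hr1
  set w := t * h with hw
  have hcomm : ∀ x ∈ X, Commute w x := by
    intro x hx
    have h1 := hh' x (hX hx) (hXr x hx)
    change w * x = x * w
    rw [hw]
    have h2 : t * x = h * x * h⁻¹ * t := by
      rw [← h1]
      calc t * x = t * x * (t * t) := by rw [hS.mul_self, mul_one]
        _ = _ := by group
    -- `t h x = x t h` iff `t (h x h⁻¹) = x t`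
    have h3 : x * t = t * (h * x * h⁻¹) := by
      rw [← h1]
      calc x * t = (t * t) * x * t := by rw [hS.mul_self, one_mul]
        _ = _ := by group
    calc t * h * x = t * (h * x * h⁻¹) * h := by group
      _ = x * t * h := by rw [h3]
      _ = x * (t * h) := by group
  have hw2 : w * w ∈ DD G a t := by
    have h1 : w * w = (t * h * t) * h := by rw [hw]; group
    rw [h1]
    exact mul_mem (t_conj_mem_DD hS hh) hh
  obtain ⟨m, hm⟩ := DD_orderOf_odd hS hw2
  refine ⟨w ^ (2 * m + 1), ?_, ?_, ?_⟩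
  · have h1 : (w * w) ^ (2 * m + 1) = 1 := by
      rw [← hm]
      exact pow_orderOf_eq_one _
    have h2 : w ^ (2 * m + 1) * w ^ (2 * m + 1) = (w * w) ^ (2 * m + 1) := by
      rw [← (Commute.refl w).mul_pow]
    rw [h2, h1]
  · have h1 : (w * w) ^ m ∈ DD G a t := pow_mem hw2 m
    have h2 : w ^ (2 * m + 1) = w * (w * w) ^ m := by
      rw [pow_succ', pow_mul, pow_two]
    rw [h2, mul_smul]
    have h3 : (w * w) ^ m • a = a := h1.1
    rw [h3, hw, mul_smul]
    have h4 : h • a = a := hh.1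
    rw [h4]
  · intro x hx
    exact ((hcomm x hx).pow_left _).eq.symm

omit [Finite G] in
/-- An involution interchanging `a` and `t • a` is a `K`-conjugate of `t`. -/
theorem exists_KK_conj_t (hS : Cfsg.IsRankOneSetup G Ω a t Q) {u : G} (hu : u * u = 1) (hua : u • a = t • a) :
    ∃ v ∈ KK G a t, u = v⁻¹ * t * v := by
  have hk := t_mul_mem_KK hS hu hua
  set k := t * u with hk_def
  have hti : t⁻¹ = t := t_inv hS
  have hk2 : t * k * t = k⁻¹ := by
    have := hk.2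
    rwa [hti] at this
  set v := k ^ ((Nat.card (DD G a t) + 1) / 2) with hv_def
  have hvv : v * v = k := Cfsg.Agent.Lib.RankOne.OddInvert.pow_half_sq (odd_D hS) hk.1
  have hvD : v ∈ DD G a t := pow_mem hk.1 _
  have htv : t * v * t⁻¹ = v⁻¹ := by
    rw [hv_def, ← conj_pow, hti, hk2, inv_pow]
  refine ⟨v, ⟨hvD, htv⟩, ?_⟩
  have h1 : v⁻¹ * t = t * v := by
    rw [hti] at htv
    calc v⁻¹ * t = (t * v * t) * t := by rw [htv]
      _ = t * v * (t * t) := by group
      _ = t * v := by rw [hS.mul_self, mul_one]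
  rw [h1, mul_assoc, hvv, hk_def, ← mul_assoc, hS.mul_self, one_mul]

omit [Finite G] in
/-- A subset of `D` fixing three distinct points fixes a point other than `a`, `t • a`. -/
theorem exists_third (_hS : Cfsg.IsRankOneSetup G Ω a t Q) {b c d : Ω} (hbc : b ≠ c) (hbd : b ≠ d) (hcd : c ≠ d) :
    ∃ e : Ω, (e = b ∨ e = c ∨ e = d) ∧ e ≠ a ∧ e ≠ t • a := by
  by_cases h1 : b ≠ a ∧ b ≠ t • a
  · exact ⟨b, Or.inl rfl, h1.1, h1.2⟩
  by_cases h2 : c ≠ a ∧ c ≠ t • a
  · exact ⟨c, Or.inr (Or.inl rfl), h2.1, h2.2⟩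
  by_cases h3 : d ≠ a ∧ d ≠ t • a
  · exact ⟨d, Or.inr (Or.inr rfl), h3.1, h3.2⟩
  exfalso
  push Not at h1 h2 h3
  by_cases hb : b = a
  · by_cases hc : c = a
    · exact hbc (hb.trans hc.symm)
    · by_cases hd : d = a
      · exact hbd (hb.trans hd.symm)
      · exact hcd ((h2 hc).trans (h3 hd).symm)
  · by_cases hc : c = a
    · by_cases hd : d = a
      · exact hcd (hc.trans hd.symm)
      · exact hbd ((h1 hb).trans (h3 hd).symm)
    · exact hbc ((h1 hb).trans (h2 hc).symm)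

/-- Key package: `X ⊆ D` fixing a point other than `a`, `t • a`: there is a non-identity element of `Q`
commuting with `X`, an involution `u` commuting with `X` interchanging `a` and `t • a`, and `v ∈ K`
with `u = v⁻¹ t v`. -/
theorem exists_package (hS : Cfsg.IsRankOneSetup G Ω a t Q) {X : Set G} (hX : X ⊆ (DD G a t : Set G))
    {e : Ω} (hea : e ≠ a) (heb : e ≠ t • a) (hXe : ∀ x ∈ X, x • e = e) :
    ∃ v ∈ KK G a t, ∀ x ∈ X, (v * x * v⁻¹) * t = t * (v * x * v⁻¹) := by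
  obtain ⟨r, hr, hre⟩ := exists_Q_smul hS hea
  have hr1 : r ≠ 1 := by
    rintro rfl
    apply heb
    rw [← hre, one_smul]
  have hXr : ∀ x ∈ X, x * r = r * x := by
    intro x hx
    apply commute_Q_of_fix hS (hX hx) hr
    rw [hre]
    exact hXe x hx
  obtain ⟨u, hu2, hua, huc⟩ := exists_invol_comm hS hr hr1 hX hXr
  obtain ⟨v, hv, huv⟩ := exists_KK_conj_t hS hu2 hua
  refine ⟨v, hv, ?_⟩
  intro x hx
  have h1 := huc x hx
  rw [huv] at h1
  -- `x v⁻¹ t v = v⁻¹ t v x`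
  calc v * x * v⁻¹ * t = v * (x * (v⁻¹ * t * v)) * v⁻¹ := by group
    _ = v * (v⁻¹ * t * v * x) * v⁻¹ := by rw [h1]
    _ = t * (v * x * v⁻¹) := by group

/-- `C_D(t) ≤ C_D(s)`, for the structure equation. -/
theorem commute_s_of_commute_t (hS : Cfsg.IsRankOneSetup G Ω a t Q) {s r x : G} (hs : s ∈ IA G a) (hr : r ∈ Q)
    (e : t * s * t = r⁻¹ * t * r) (hx : x ∈ DD G a t) (hxt : x * t = t * x) : x * s = s * x := by
  have hxt' : Commute x t := hxt
  have h1 : x * s * x⁻¹ ∈ IA G a := by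
    obtain ⟨h1, h2, h3⟩ := hs
    refine ⟨?_, conj_ne_one h2, conj_sq h3⟩
    exact mul_mem (mul_mem hx.1 h1) (inv_mem hx.1)
  have h2 : x * r * x⁻¹ ∈ Q := hS.conj_mem x hx.1 r hr
  have h3 : t * (x * s * x⁻¹) * t = (x * r * x⁻¹)⁻¹ * t * (x * r * x⁻¹) := by
    have h4 : t * (x * s * x⁻¹) * t = x * (t * s * t) * x⁻¹ := by
      have hxi : t * x⁻¹ = x⁻¹ * t := (hxt'.inv_left).eq.symm
      calc t * (x * s * x⁻¹) * t = (t * x) * s * (x⁻¹ * t) := by group
        _ = (x * t) * s * (t * x⁻¹) := by rw [← hxt, hxi]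
        _ = _ := by group
    rw [h4, e]
    calc x * (r⁻¹ * t * r) * x⁻¹ = x * r⁻¹ * (x⁻¹ * x) * t * r * x⁻¹ := by group
      _ = x * r⁻¹ * x⁻¹ * (x * t) * r * x⁻¹ := by group
      _ = x * r⁻¹ * x⁻¹ * (t * x) * r * x⁻¹ := by rw [hxt]
      _ = _ := by group
  obtain ⟨h4, -⟩ := structure_unique hS h1 h2 h3 hs hr e
  rw [mul_inv_eq_iff_eq_mul] at h4
  exact h4

/-- Injectivity of `k ↦ k⁻¹ s k` on `K`. -/
theorem K_conj_inj (hS : Cfsg.IsRankOneSetup G Ω a t Q) {s : G} (hs : s ∈ IA G a) {k k' : G}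
    (hk : k ∈ KK G a t) (hk' : k' ∈ KK G a t) (e : k⁻¹ * s * k = k'⁻¹ * s * k') : k = k' := by
  classical
  let f : KK G a t → IA G a := fun k => ⟨k.1⁻¹ * s * k.1, by
    obtain ⟨h1, h2, h3⟩ := hs
    refine ⟨?_, ?_, ?_⟩
    · exact mul_mem (mul_mem (inv_mem k.2.1.1) h1) k.2.1.1
    · have := conj_ne_one (g := k.1⁻¹) h2
      rwa [inv_inv] at this
    · have := conj_sq (g := k.1⁻¹) h3
      rwa [inv_inv] at this⟩
  have hsurj : Function.Surjective f := by
    rintro ⟨s', hs'⟩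
    obtain ⟨k, hk, e⟩ := exists_K_conj hS hs hs'
    exact ⟨⟨k, hk⟩, Subtype.ext e⟩
  haveI : Finite (IA G a) := inferInstance
  haveI : Finite (KK G a t) := inferInstance
  haveI := Fintype.ofFinite (IA G a)
  haveI := Fintype.ofFinite (KK G a t)
  have hcard : Fintype.card (KK G a t) = Fintype.card (IA G a) := by
    rw [← Nat.card_eq_fintype_card, ← Nat.card_eq_fintype_card]
    exact card_KK_eq hS
  have hbij := (Fintype.bijective_iff_surjective_and_card f).2 ⟨hsurj, hcard⟩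
  have h := hbij.1 (a₁ := ⟨k, hk⟩) (a₂ := ⟨k', hk'⟩) (Subtype.ext e)
  exact congrArg Subtype.val h

omit [Finite G] in
/-- Factorisation in `D`. -/
theorem D_factor (hS : Cfsg.IsRankOneSetup G Ω a t Q) {x : G} (hx : x ∈ DD G a t) :
    ∃ y k : G, y ∈ DD G a t ∧ t * y = y * t ∧ k ∈ KK G a t ∧ x = y * k := by
  have hnorm : ∀ x ∈ DD G a t, t * x * t⁻¹ ∈ DD G a t := by
    intro x hx
    rw [t_inv hS]
    exact t_conj_mem_DD hS hx
  obtain ⟨y, z, hy, hyt, hz, hzt, e⟩ :=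
    Cfsg.Agent.Lib.RankOne.OddInvert.exists_factor hS.mul_self (odd_D hS) hnorm hx
  exact ⟨y, z, hy, hyt, ⟨hz, hzt⟩, e⟩

/-- The reverse inclusion: `C_D(s) ≤ C_D(t)`. -/
theorem commute_t_of_commute_s (hS : Cfsg.IsRankOneSetup G Ω a t Q) {s r x : G} (hs : s ∈ IA G a) (hr : r ∈ Q)
    (e : t * s * t = r⁻¹ * t * r) (hx : x ∈ DD G a t) (hxs : x * s = s * x) : x * t = t * x := by
  obtain ⟨y, k, hy, hyt, hk, rfl⟩ := D_factor hS hx
  have h1 : y * s = s * y := commute_s_of_commute_t hS hs hr e hy hyt.symm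
  have h2 : k * s = s * k := by
    have h3 : y * (k * s) = y * (s * k) := by
      calc y * (k * s) = (y * k) * s := by group
        _ = s * (y * k) := hxs
        _ = (s * y) * k := by group
        _ = (y * s) * k := by rw [h1]
        _ = _ := by group
    exact mul_left_cancel h3
  have h3 : k = 1 := by
    have h4 : (1 : G) ∈ KK G a t := by
      refine ⟨one_mem _, ?_⟩
      simp
    apply K_conj_inj hS hs hk h4
    rw [mul_assoc, ← h2]
    group
  rw [h3, mul_one]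
  exact hyt.symm

/-- `X ⊆ D` with a third fixed point commutes with an involution of `G_a`. -/
theorem exists_invol_Q_comm (hS : Cfsg.IsRankOneSetup G Ω a t Q) {X : Set G} (hX : X ⊆ (DD G a t : Set G))
    {e : Ω} (hea : e ≠ a) (heb : e ≠ t • a) (hXe : ∀ x ∈ X, x • e = e) :
    ∃ s ∈ IA G a, ∀ x ∈ X, x * s = s * x := by
  obtain ⟨v, hv, hvx⟩ := exists_package hS hX hea heb hXe
  obtain ⟨s₀, r₀, hs₀, hr₀, e₀⟩ := exists_structure hS
  refine ⟨v⁻¹ * s₀ * v, ?_, ?_⟩
  · obtain ⟨h1, h2, h3⟩ := hs₀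
    refine ⟨?_, ?_, ?_⟩
    · exact mul_mem (mul_mem (inv_mem hv.1.1) h1) hv.1.1
    · have := conj_ne_one (g := v⁻¹) h2
      rwa [inv_inv] at this
    · have := conj_sq (g := v⁻¹) h3
      rwa [inv_inv] at this
  · intro x hx
    have h1 : v * x * v⁻¹ ∈ DD G a t := mul_mem (mul_mem hv.1 (hX hx)) (inv_mem hv.1)
    have h2 := commute_s_of_commute_t hS hs₀ hr₀ e₀ h1 (hvx x hx)
    calc x * (v⁻¹ * s₀ * v) = v⁻¹ * ((v * x * v⁻¹) * s₀) * v := by group
      _ = v⁻¹ * (s₀ * (v * x * v⁻¹)) * v := by rw [h2]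
      _ = _ := by group

/-- `C_G(X)` contains an element interchanging `a` and `t • a`, and with `C_Q(X)` is doubly transitive on
the fixed points. -/
theorem exists_pair (hS : Cfsg.IsRankOneSetup G Ω a t Q) {X : Set G} (hX : X ⊆ (DD G a t : Set G))
    {e : Ω} (hea : e ≠ a) (heb : e ≠ t • a) (hXe : ∀ x ∈ X, x • e = e)
    {p₁ p₂ : Ω} (hp : p₁ ≠ p₂) (hp₁ : ∀ x ∈ X, x • p₁ = p₁) (hp₂ : ∀ x ∈ X, x • p₂ = p₂) :
    ∃ g ∈ Subgroup.centralizer X, g • a = p₁ ∧ g • t • a = p₂ := by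
  -- first get `r₀ ∈ C_Q(X)`, `r₀ ≠ 1`
  obtain ⟨r₀, hr₀, hr₀e⟩ := exists_Q_smul hS hea
  have hr₀1 : r₀ ≠ 1 := by
    rintro rfl
    apply heb
    rw [← hr₀e, one_smul]
  have hXr₀ : ∀ x ∈ X, x * r₀ = r₀ * x := by
    intro x hx
    apply commute_Q_of_fix hS (hX hx) hr₀
    rw [hr₀e]
    exact hXe x hx
  obtain ⟨u, hu2, hua, huc⟩ := exists_invol_comm hS hr₀ hr₀1 hX hXr₀
  have hcent : ∀ g : G, (∀ x ∈ X, x * g = g * x) → g ∈ Subgroup.centralizer X := by
    intro g hg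
    rw [Subgroup.mem_centralizer_iff]
    intro x hx
    exact hg x hx
  -- a point `p ≠ a` fixed by `X` is `r • t • a`, `r ∈ C_Q(X)`
  have hQX : ∀ p : Ω, p ≠ a → (∀ x ∈ X, x • p = p) →
      ∃ r ∈ Q, (∀ x ∈ X, x * r = r * x) ∧ r • t • a = p := by
    intro p hpa hpX
    obtain ⟨r, hr, hrp⟩ := exists_Q_smul hS hpa
    refine ⟨r, hr, ?_, hrp⟩
    intro x hx
    apply commute_Q_of_fix hS (hX hx) hr
    rw [hrp]
    exact hpX x hx
  -- first component
  obtain ⟨g₁, hg₁, hg₁a⟩ : ∃ g₁ : G, (∀ x ∈ X, x * g₁ = g₁ * x) ∧ g₁ • a = p₁ := by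
    by_cases h : p₁ = a
    · exact ⟨1, by simp, by simp [h]⟩
    · obtain ⟨r, hr, hrc, hrp⟩ := hQX p₁ h hp₁
      refine ⟨r * u, ?_, ?_⟩
      · intro x hx
        calc x * (r * u) = (x * r) * u := by group
          _ = r * (x * u) := by rw [hrc x hx]; group
          _ = r * (u * x) := by rw [huc x hx]
          _ = _ := by group
      · rw [mul_smul, hua, hrp]
  -- second component
  have hne : g₁⁻¹ • p₂ ≠ a := by
    intro h
    apply hp
    rw [inv_smul_eq_iff] at h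
    rw [← hg₁a, h]
  have hfix : ∀ x ∈ X, x • (g₁⁻¹ • p₂) = g₁⁻¹ • p₂ := by
    intro x hx
    have h1 : Commute x g₁ := hg₁ x hx
    rw [← mul_smul, (h1.inv_right).eq, mul_smul, hp₂ x hx]
  obtain ⟨r, hr, hrc, hrp⟩ := hQX _ hne hfix
  refine ⟨g₁ * r, ?_, ?_, ?_⟩
  · apply hcent
    intro x hx
    calc x * (g₁ * r) = (x * g₁) * r := by group
      _ = g₁ * (x * r) := by rw [hg₁ x hx]; group
      _ = g₁ * (r * x) := by rw [hrc x hx]
      _ = _ := by group
  · rw [mul_smul, (show r • a = a from hS.le hr), hg₁a]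
  · rw [mul_smul, hrp, smul_inv_smul]

end Finite

end Cfsg.Agent.Lib.RankOne.Struct
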