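import Cfsg.Agent.Lib.RankOne.Struct

/-!
Moving the rank-one set-up: conjugating the whole set-up, and replacing `t` by any involution moving `a`.
-/

set_option autoImplicit false

namespace Cfsg.Agent.Lib.RankOne.Transfer

open Cfsg.Agent.Lib.RankOne.Basic

variable {G Ω : Type*} [Group G] [MulAction G Ω] {a : Ω} {t : G} {Q : Subgroup G}

/-- stabiliser of a translate -/
theorem stab_smul (g : G) (c : Ω) :
    MulAction.stabilizer G (g • c) = (MulAction.stabilizer G c).map (MulAut.conj g).toMonoidHom :=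
  MulAction.stabilizer_smul_eq_stabilizer_map_conj g c

theorem conj_inj (g : G) : Function.Injective (MulAut.conj g).toMonoidHom :=
  (MulAut.conj g).injective

/-- Conjugating the whole set-up. -/
theorem setup_conj (hS : Cfsg.IsRankOneSetup G Ω a t Q) (g : G) :
    Cfsg.IsRankOneSetup G Ω (g • a) (g * t * g⁻¹) (Q.map (MulAut.conj g).toMonoidHom) := by
  have hta : (g * t * g⁻¹) • (g • a) = g • (t • a) := by
    rw [smul_smul, mul_assoc, mul_assoc, inv_mul_cancel, mul_one, mul_smul]
  refine ⟨hS.two_transitive, ?_, ?_, ?_, ?_, ?_, ?_, ?_, ?_, ?_⟩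
  · calc g * t * g⁻¹ * (g * t * g⁻¹) = g * (t * t) * g⁻¹ := by group
      _ = 1 := by rw [hS.mul_self]; group
  · intro e
    apply hS.ne_one
    have : t = g⁻¹ * (g * t * g⁻¹) * g := by group
    rw [this, e]; group
  · intro hmem
    apply hS.not_mem
    have h1 : (g * t * g⁻¹) • (g • a) = g • a := hmem
    rw [hta] at h1
    exact smul_left_cancel g h1
  · rw [stab_smul]
    exact Subgroup.map_mono hS.le
  · intro h hh x hx
    rw [stab_smul] at hh
    obtain ⟨h', hh', rfl⟩ := hh
    obtain ⟨x', hx', rfl⟩ := hx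
    refine ⟨h' * x' * h'⁻¹, hS.conj_mem h' hh' x' hx', ?_⟩
    simp only [MulEquiv.coe_toMonoidHom, MulAut.conj_apply]
    group
  · rw [hta, stab_smul, ← Subgroup.map_inf _ _ _ (conj_inj g), hS.inf_eq_bot, Subgroup.map_bot]
  · rw [hta, stab_smul, stab_smul, ← Subgroup.map_inf _ _ _ (conj_inj g), ← Subgroup.map_sup,
      hS.sup_eq]
  · rw [Subgroup.card_map_of_injective (conj_inj g)]
    exact hS.even_card
  · rw [hta, stab_smul, stab_smul, ← Subgroup.map_inf _ _ _ (conj_inj g),
      Subgroup.card_map_of_injective (conj_inj g)]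
    exact hS.odd_card

/-- The set-up depends on `t` only through `t • a`. -/
theorem setup_of_same_image (hS : Cfsg.IsRankOneSetup G Ω a t Q) {w : G} (hw1 : w ≠ 1)
    (hw2 : w * w = 1) (hwa : w • a = t • a) : Cfsg.IsRankOneSetup G Ω a w Q := by
  refine ⟨hS.two_transitive, hw2, hw1, ?_, hS.le, hS.conj_mem, ?_, ?_, hS.even_card, ?_⟩
  · intro hmem
    have h1 : w • a = a := hmem
    rw [hwa] at h1
    exact hS.not_mem h1
  · rw [hwa]; exact hS.inf_eq_bot
  · rw [hwa]; exact hS.sup_eq
  · rw [hwa]; exact hS.odd_card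

/-- Any involution moving `a` can be used in the set-up. -/
theorem setup_of_invol (hS : Cfsg.IsRankOneSetup G Ω a t Q) {w : G} (hw1 : w ≠ 1)
    (hw2 : w * w = 1) (hwa : w • a ≠ a) : Cfsg.IsRankOneSetup G Ω a w Q := by
  obtain ⟨r, hr, hre⟩ := exists_Q_smul hS hwa
  have hra : r • a = a := hS.le hr
  have hS' := setup_conj hS r
  rw [hra] at hS'
  have hQ : Q.map (MulAut.conj r).toMonoidHom = Q := by
    apply le_antisymm
    · rintro _ ⟨x, hx, rfl⟩
      exact hS.conj_mem r (hS.le hr) x hx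
    · intro x hx
      refine ⟨r⁻¹ * x * r, ?_, ?_⟩
      · have := hS.conj_mem r⁻¹ (Subgroup.inv_mem _ (hS.le hr)) x hx
        rwa [inv_inv] at this
      · simp only [MulEquiv.coe_toMonoidHom, MulAut.conj_apply]
        group
  rw [hQ] at hS'
  apply setup_of_same_image hS' hw1 hw2
  have hr' : r⁻¹ • a = a := by
    rw [inv_smul_eq_iff]
    exact hra.symm
  rw [← hre, mul_smul, mul_smul, hr']

end Cfsg.Agent.Lib.RankOne.Transfer
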